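import Cfsg.Agent.Lib.CoT.J21
import Cfsg.Agent.Lib.Ico.J2

/-!
Groups of Hall–Janko type with two classes of involutions are isomorphic to the Hall–Janko group.
-/

set_option autoImplicit false

namespace CA.CoT.J
open CA.Fi Subgroup CA CA.Ex2 Cfsg Equiv CA.CoT CA.F24

local notation "gM" => mdlN 128 nM nM_ok

section
variable {Γ : Type*} [Group Γ] {f : ℕ → Γ}
theorem k4_of (s : Snd eC f) {d : List ℕ} (hd : d = [44] ∨ d = [0, 44, 1]) (bd : (f 18 * wd f d) ^ 2 = 1) :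
    K4Rel (f 8) (f 18) (f 0) (wd f d) := by
  have r := s.eqs (l := [([16, 16], []), ([36, 36], []), ([0, 0], []), (d ++ d, []), (pwW [16, 36] 5, []),
    (pwW [16, 0] 2, []), (pwW (16 :: d) 2, []), (pwW [36, 0] 3, []), (pwW (0 :: d) 8, []), ([16], pwW (0 :: d) 4)])
    (by rcases hd with rfl | rfl <;> decide +kernel)
  simp only [List.forall_mem_cons, wd_pwW, wd_cons, wd_nil, wd_append, mul_one, sg, Nat.reduceMod, Nat.reduceDiv,
    ↓reduceIte] at r
  obtain ⟨a1, a2, a3, a4, a5, a6, a7, a8, a9, a10, -⟩ := r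
  exact ⟨a1, a2, a3, a4, a5, a6, a7, a8, bd, a9, a10⟩

theorem j2_of (s : Snd eC f) (k : K4Rel (f 8) (f 18) (f 0) (f 22)) (e : (f 18 * f 0 * f 22 * f 0 * f 22) ^ 5 = f 10) :
    TC.J2Rel (f 8) (f 18) (f 0) (f 22) (f 19) := by
  have r := s.eqs (l := [([38, 38], []), (pwW [16, 38] 2, []), (pwW [36, 38] 2, []), (pwW [0, 38] 2, []),
    (pwW [44, 38] 3, []), (pwW [20, 38] 3, [])]) (by decide +kernel)
  simp only [List.forall_mem_cons, wd_pwW, wd_cons, wd_nil, mul_one, sg, Nat.reduceMod, Nat.reduceDiv,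
    ↓reduceIte] at r
  obtain ⟨a1, a2, a3, a4, a5, a6, -⟩ := r
  exact ⟨k.aa, k.bb, k.cc, k.dd, a1, k.ab, k.ac, k.ad, a2, k.bc, k.bd, a3, k.cd, a4, a5, k.x1, e ▸ a6⟩

theorem gen_R : gen f RI = closure {f 8, f 18, f 0, f 22, f 19} := by
  rw [gen]; congr 1; ext; simp [RI, eq_comm]
end

theorem k4_M : K4Rel (gM 8) (gM 18) (gM 0) (gM 22) := by
  simpa [sg] using k4_of (sK _) (Or.inl rfl) (by simpa [sg] using sM.pow M_U.1)

variable {G : Type*} [Group G] [Finite G] {g : ℕ → G}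

theorem funK (k : K4Rel (g 8) (g 18) (g 0) (g 22)) : Snd (eqK eM [K4]) (pr gM g) := sM.known (by
  simpa using fun_of_card (I := K4) ((K4Rel.card_le (f := pr gM g) (k4_M.prod k)).trans
    (lK_ok.2 ▸ mdl_lb (by norm_num) (by norm_num) nM_ok tM_eq lK_ok.1)))

namespace JB
variable (h : JB g)
include h

theorem cC : Nat.card (gen (pr gM g) CT) ≤ 240 := by
  have s : Snd (eqR Rb) (pr gM g) := snd_eqR fun w hw => by
    rw [wd_prod, sM.rels M_b w hw]
    refine Prod.ext rfl ?_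
    simp only [Rb, List.mem_cons, List.not_mem_nil, or_false] at hw
    rcases hw with rfl | rfl | rfl | rfl | rfl <;>
      simp only [wd_cons, wd_nil, mul_one, sg, Nat.reduceMod, Nat.reduceDiv, ↓reduceIte, Nat.one_ne_zero,
        ← mul_assoc, Prod.snd_one]
    · exact h.bb
    · rw [h.by', inv_mul_cancel]
    · rw [← h.bx, pow_three']; simp only [← mul_assoc]
    · rw [h.bt.eq]; group
    · rw [h.bu.eq]; group
  have a1 := (h.s0.or s).tcq tcc1 tcc2 tcc3
  have a2 := h.s0.tc0 tnc1 tnc2 tnc3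
  omega
theorem fC : Fun (gen (pr gM g) CT) :=
  fun_of_card (h.cC.trans (lC_ok.2 ▸ mdl_lb (by norm_num) (by norm_num) nM_ok tM_eq lC_ok.1))
theorem sC : Snd eC (pr gM g) := sM.known (by simpa using ⟨h.fH, h.fL, h.fC⟩)
theorem f5 : (g 8 * g 18) ^ 5 = 1 := by simpa [sg] using h.sC.snd.pow (w := [16, 36]) (k := 5) (by decide +kernel)
theorem of5 : orderOf (g 8 * g 18) = 5 := by
  haveI := Fact.mk Nat.prime_five
  refine orderOf_eq_prime h.f5 fun e => ?_
  have S := h.S1 h.nc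
  exact S.H1 (S.VN S.zV) (by rw [eq_inv_of_mul_eq_one_left e, inv_eq_of_mul_eq_one_right h.bb]; exact h.by')
theorem eC' : gen g CT = 𝐂[g 19] := by
  have r := h.r
  have S := h.S1 h.nc
  refine le_antisymm ((gen_le g).2 ?_) (h.top _ (fun a ha => ?_) (mem_gen g (by decide)) (mem_gen g (by decide)))
  · simp only [CT, List.forall_mem_cons]
    exact ⟨mem_centralizer_singleton_iff.2 rfl, mem_centralizer_singleton_iff.2 r.tu.symm, S.zX, S.VX S.xV, S.yX,
      mem_centralizer_singleton_iff.2 h.bt, by simp⟩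
  · obtain ⟨v, u, hv, hu, rfl, -⟩ := h.cA.1 a (mem_centralizer_singleton_iff.1 ha.2)
      (mem_centralizer_singleton_iff.1 ha.1)
    have k : ∀ i j, i ∈ CT → j ∈ CT → ∀ v, I4 (g i) (g j) v → v ∈ gen g CT := by
      rintro i j hi hj v (e | e | e | e) <;> rw [e]
      exacts [one_mem _, mem_gen g hi, mem_gen g hj, mul_mem (mem_gen g hi) (mem_gen g hj)]
    exact mul_mem (k _ _ (by decide) (by decide) v hv) (k _ _ (by decide) (by decide) u hu)
theorem coC : CoFun (gen (pr gM g) CT) := cofun_of_card (h.cC.trans (by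
  haveI := Fact.mk Nat.prime_three
  have S := h.S1 h.nc
  have a1 := h.cA.2 ▸ card_dvd_of_le (inf_le_right (a := 𝐂[g 8]) (b := 𝐂[g 19]))
  have a2 := (𝐂[g 19]).orderOf_dvd_natCard S.yX
  have a3 := (𝐂[g 19]).orderOf_dvd_natCard (mul_mem S.zX (mem_centralizer_singleton_iff.2 h.bt))
  rw [orderOf_eq_prime (p := 3) (by rw [pow_three', S.y3]) S.y1] at a2
  rw [h.of5] at a3
  have := Nat.card_pos (α := 𝐂[g 19])
  rw [h.eC']
  omega))

theorem cF {a : G} (h1 : Commute a (g 19)) (h2 : Commute a (g 8 * g 18)) :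
    ∃ u, ∃ i : ℕ, I4 (g 19) (g 20) u ∧ a = u * (g 8 * g 18) ^ i := by
  have e : wd g [16, 36] = g 8 * g 18 := by simp [sg]
  obtain ⟨w, hw, rfl⟩ := (cenP (by norm_num) (by norm_num) nM_ok tM_eq h.sC h.coC h.cC cF_ok).1 a
    (h.eC'.ge (mem_centralizer_singleton_iff.2 h1)) (e ▸ h2)
  obtain ⟨u, hu, hw⟩ := List.mem_flatMap.1 hw
  obtain ⟨i, -, rfl⟩ := List.mem_map.1 hw
  exact ⟨_, i, i4U hu, by rw [wd_append, wd_pwW, e]⟩
theorem ft : Commute (g 8 * g 18) (g 19) := h.r.tz.symm.mul_left h.bt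
theorem fu : Commute (g 8 * g 18) (g 20) := h.r.uz.symm.mul_left h.bu
theorem fk : Commute (g 8 * g 18) (g 10) := h.r.kz.symm.mul_left h.bk
theorem p5 (i : ℕ) : ((g 8 * g 18) ^ i) ^ 5 = 1 := by rw [← pow_mul, mul_comm, pow_mul, h.f5, one_pow]
theorem invF {a : G} (h1 : Commute a (g 19)) (h2 : Commute a (g 8 * g 18)) (aa : a * a = 1) : I4 (g 19) (g 20) a := by
  obtain ⟨u, i, hu, rfl⟩ := h.cF h1 h2
  have e := h.p5 i
  rw [← pow_two, ((i4c hu h.ft h.fu).pow_left i).symm.mul_pow, h.r.sqU hu, one_mul] at aa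
  rw [show 5 = 2 * 2 + 1 from rfl, pow_succ, pow_mul, aa, one_pow, one_mul] at e
  rwa [e, mul_one]

theorem S2 : A5S 𝐂[g 8 * g 18] (g 19) (g 20) (g 10) := by
  have r := h.r
  refine ⟨mem_centralizer_singleton_iff.2 h.ft.symm, mem_centralizer_singleton_iff.2 h.fk.symm, r.tt, h.t1, r.k3,
    r.kt, r.ku, fun c hc e => h.invF e ?_ (by rw [conj_mul, r.tt]; simp), fun a ha e => ?_⟩
  · have : Commute c (g 8 * g 18) := mem_centralizer_singleton_iff.1 hc
    exact (this.mul_left h.ft.symm).mul_left this.inv_left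
  · obtain ⟨u, i, hu, rfl⟩ := h.cF e (mem_centralizer_singleton_iff.1 ha)
    refine ⟨u, _, hu, rfl, h.fk.pow_left i, h.ft.pow_left i, fun c hc => ?_, fun e => ?_⟩
    · exact ((show Commute c _ from mem_centralizer_singleton_iff.1 hc).symm.pow_left i).pow_left 2
    · rwa [show 12 = 5 * 2 + 2 from rfl, pow_add, pow_mul, h.p5, one_pow, one_mul] at e

theorem not_le2 : ¬ 𝐂[g 8 * g 18] ≤ h.S2.N := fun l => by
  have S := h.S2
  haveI := Fact.mk Nat.prime_five
  have o : orderOf (g 12) = 5 := orderOf_eq_prime h.r.h5 (by simpa [sg] using h.sN _ _ M_R0.2.1)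
  obtain ⟨c, hc⟩ := conj_into_zpowers (m := 6) Nat.prime_five (by norm_num) h.of5 o fun a ha => by
    obtain ⟨u, i, hu, e⟩ := h.cF (S.cube_comm (l (mem_centralizer_singleton_iff.2 ha))) (ha.pow_left 3)
    rw [show 6 = 3 * 2 from rfl, pow_mul, e, ((i4c hu h.ft h.fu).pow_left i).symm.mul_pow, h.r.sqU hu, one_mul]
    exact pow_mem (npow_mem_zpowers _ i) 2
  obtain ⟨n, hn⟩ := mem_zpowers_iff.1 (zp_eq_of_prime Nat.prime_five h.of5 hc fun e => by
    rw [conj_eq_one_iff.1 e] at o; simp at o)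
  have c1 : Commute (c * g 8 * c⁻¹) (g 8 * g 18) := hn ▸ (h.r.hz.symm.conj c).zpow_right n
  have sq : c * g 8 * c⁻¹ * (c * g 8 * c⁻¹) = 1 := by rw [conj_mul, h.zz]; simp
  obtain ⟨a, -, e⟩ := S.VD (h.invF (S.inv_comm (l (mem_centralizer_singleton_iff.2 c1)) sq) c1 sq)
    (mt conj_eq_one_iff.1 h.hz)
  exact h.nc ((isConj_iff.2 ⟨c, e⟩).trans (isConj_iff.2 ⟨a, rfl⟩).symm)

theorem k4 : K4Rel (g 8) (g 18) (g 0) (g 22) := by
  have S := h.S2
  have r := h.r
  obtain ⟨d, hd, e1, e2, -, c⟩ := S.main.resolve_left h.not_le2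
  have zf : g 8 * (g 8 * g 18) * (g 8)⁻¹ = (g 8 * g 18)⁻¹ := dih_inv h.zz h.bb
  have zd := c (g 8) (fun a ha => mem_centralizer_singleton_iff.2 (by
    have := ((show Commute a _ from mem_centralizer_singleton_iff.1 ha).conj (g 8)).inv_right
    rw [zf, inv_inv] at this
    exact this.eq)) r.tz.symm r.kz.symm
  obtain ⟨d1, dd, -⟩ := S.Dp hd
  have bd : (g 18 * d) ^ 2 = 1 := by
    have := zd.inv_left.mul_left (show Commute d _ from mem_centralizer_singleton_iff.1 d1).symm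
    rw [inv_mul_cancel_left] at this
    rw [this.mul_pow, pow_two, pow_two, h.bb, dd, one_mul]
  have e20 : wd g [20] = g 10 := by simp [sg]
  obtain ⟨w, hw, e⟩ := (cenP (by norm_num) (by norm_num) nM_ok tM_eq h.sH h.coH h.cX cK_ok).1 (d * (g 22)⁻¹)
    (h.eH'.ge (mul_mem (mem_centralizer_singleton_iff.2 zd.symm) (inv_mem (mem_centralizer_singleton_iff.2 r.dz))))
    (by
      rw [e20]
      refine mul_inv_eq_iff_eq_mul.1 ?_
      calc _ = d * ((g 22)⁻¹ * (g 10)⁻¹ * g 22)⁻¹ * d⁻¹ := by group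
        _ = (d * g 10 * d⁻¹)⁻¹ := by rw [r.dk]; group
        _ = _ := by rw [e1, inv_inv])
  have e3 : wd g (w ++ [44]) = d := by rw [wd_append, ← e]; simp [sg]
  have := allL_iff.1 M_K w hw
  simp only [exL_iff, List.mem_cons, List.not_mem_nil, or_false, exists_eq_or_imp, exists_eq_left, id] at this
  rcases this with k | k | k | k
  · exact absurd (by rw [wd_pwW, e3, pow_two, dd, wd_nil]) (h.sN _ _ k)
  · exact absurd (by rw [wd_pwW, wd_append, e3, wd_nil, ← e2]; simp [sg]) (h.sN _ _ k)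
  · simpa [sg] using k4_of h.sC.snd (Or.inl rfl) (by rwa [← h.sH.snd _ _ k, e3])
  · exfalso
    have k1 := k4_of h.sC.snd (Or.inr rfl) (by rwa [← h.sH.snd _ _ k, e3])
    have k2 := (funK (g := Function.update g 22 (wd g [0, 44, 1])) (by simpa using k1)).snd.pow M_U.2.1
    have k3 := h.sC.snd Yw [42] (by decide +kernel)
    rw [wd_append, wd_congr (g' := g) (w := Yw) fun c hc => Function.update_of_ne (by revert c; decide) _ _, k3] at k2
    simp only [wd_cons, wd_nil, mul_one, sg, Nat.reduceMod, Nat.reduceDiv, ↓reduceIte, Nat.one_ne_zero,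
      ← mul_assoc, Function.update_self, ne_eq, OfNat.zero_ne_ofNat, not_false_eq_true, Function.update_of_ne] at k2
    rw [r.d1, r.d2] at k2
    exact (h.S1 h.nc).x1 k2

theorem eu : (pr gM g 18 * pr gM g 0 * pr gM g 22 * pr gM g 0 * pr gM g 22) ^ 5 = pr gM g 10 := by
  have k := funK h.k4 _ _ M_U.2.2
  have r := h.sC.eqs (l := [(Yw, [42]), ([44, 0, 44], [2]), (pwW ([2] ++ [42]) 2, [20])]) (by decide +kernel)
  simp only [List.forall_mem_cons, wd_pwW, wd_append] at r k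
  rw [r.1, r.2.1, r.2.2.1] at k
  simpa [sg, mul_assoc] using k.symm
theorem j2 : TC.J2Rel (pr gM g 8) (pr gM g 18) (pr gM g 0) (pr gM g 22) (pr gM g 19) :=
  j2_of h.sC (k4_M.prod h.k4) h.eu
theorem leR : gen (pr gM g) MI ≤ gen (pr gM g) RI := (h.sC.le M_M).trans ((gen_le _).2 fun i hi => by
  rcases List.mem_cons.1 hi with rfl | hi
  · rw [← h.eu]
    have m := fun i (hi : i ∈ RI) => mem_gen (pr gM g) hi
    exact pow_mem (mul_mem (mul_mem (mul_mem (mul_mem (m _ (by decide)) (m _ (by decide))) (m _ (by decide)))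
      (m _ (by decide))) (m _ (by decide))) 5
  rcases List.mem_cons.1 hi with rfl | hi
  · simpa [sg] using h.sC.mem (J := RI) (w := [42]) (v := Yw) (by decide +kernel)
  · exact mem_gen _ hi)

theorem top' : gen g RI = ⊤ := by
  have l : gen g MI ≤ gen g RI := by simpa only [map_snd_gen] using map_mono (f := MonoidHom.snd _ G) h.leR
  have l1 : 𝐂[g 8] ≤ gen g RI := h.eH' ▸ (gen_mono g (by decide)).trans l
  have l2 : 𝐂[g 19] ≤ gen g RI := h.eC' ▸ (gen_mono g (by decide)).trans l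
  have y := l (mem_gen g (show 9 ∈ MI by decide))
  haveI := Fact.mk Nat.prime_two
  have k : ∀ m ∈ gen g RI, ∀ a c, 𝐂[a] ≤ gen g RI → c * (m * a * m⁻¹) = m * a * m⁻¹ * c → c ∈ gen g RI :=
    fun m hm a c l e => by
      have := l (show m⁻¹ * c * m ∈ _ from mem_centralizer_singleton_iff.2 (by
        calc _ = m⁻¹ * (c * (m * a * m⁻¹)) * m := by group
          _ = _ := by rw [e]; group))
      simpa [mul_assoc] using mul_mem (mul_mem hm this) (inv_mem hm)
  refine eq_top_iff.2 fun c _ => ?_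
  have := XS.conj_mem_of_two_classes (X := ⊤) le_top (fun i hi oi a ha => by
      obtain ⟨m, hm, rfl | rfl⟩ := h.inv l1 y hi (by rw [← pow_two, ← oi, pow_orderOf_eq_one]) fun e => by
        simp [e] at oi
      exacts [k m hm _ a l1 (mem_centralizer_singleton_iff.1 ha.2), k m hm _ a l2 (mem_centralizer_singleton_iff.1 ha.2)])
    (mem_gen g (show 19 ∈ RI by decide)) (mem_gen g (show 8 ∈ RI by decide))
    (orderOf_eq_prime (by rw [pow_two, h.r.tt]) h.t1) (orderOf_eq_prime (by rw [pow_two, h.zz]) h.hz)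
    (fun c => h.nc c.symm) c (mem_top c)
  obtain ⟨m, hm, e | e⟩ := h.inv l1 y this (by rw [conj_mul, h.zz]; simp) (mt conj_eq_one_iff.1 h.hz)
  · have := l1 (show m⁻¹ * c ∈ _ from mem_centralizer_singleton_iff.2 (mul_inv_eq_iff_eq_mul.1 (by
      calc _ = m⁻¹ * (c * g 8 * c⁻¹) * m := by group
        _ = _ := by rw [e]; group)))
    exact (mul_mem_cancel_left (inv_mem hm)).1 this
  · exact absurd ((isConj_iff.2 ⟨c, e⟩).trans (isConj_iff.2 ⟨m, rfl⟩).symm) h.nc

theorem card : Nat.card G = 604800 := by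
  have c1 : Nat.card (gen (pr gM g) RI) = 604800 := le_antisymm (gen_R (f := pr gM g) ▸ h.j2.card_le.2)
    ((lR_ok.2 ▸ mdl_lb (by norm_num) (by norm_num) nM_ok tM_eq lR_ok.1).trans (card_fst_le RI))
  have c2 := card_eq_ker_mul_map (gen (pr gM g) RI) (MonoidHom.snd _ G)
  rw [map_snd_gen, h.top', card_top, c1] at c2
  have c3 := cls_pr (by norm_num) (by norm_num) nM_ok tM_eq cz_ok (g := g) le_rfl
  have lH : gen (pr gM g) HX ≤ gen (pr gM g) RI := (gen_mono _ (by decide)).trans h.leR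
  have lb := h.L.lp
  have e16 : wd (pr gM g) [16] = pr gM g 8 := by simp [sg]
  rw [c1, e16] at c3
  have e1 := eq_of_le_of_card_le (A := gen (pr gM g) HX) (B := gen (pr gM g) RI ⊓ 𝐂[pr gM g 8]) (le_inf lH
    ((gen_le _).2 fun i hi => mem_centralizer_singleton_iff.2 (by
      simpa only [wd_cons, wd_nil, mul_one, sg_even] using
        h.sH [2 * i, 2 * 8] [2 * 8, 2 * i] (by revert i; decide +kernel))))
    (by rw [h.coH.card_gen, h.eH', h.cH]; omega)
  set N := gen (pr gM g) RI ⊓ (MonoidHom.snd _ G).ker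
  have nN : gen (pr gM g) RI ≤ 𝐍(N) := fun a ha => mem_normalizer_of_cj_le (by
    rintro _ ⟨b, hb, rfl⟩
    exact mem_inf.2 ⟨mul_mem (mul_mem ha hb.1) (inv_mem ha), (MonoidHom.normal_ker _).conj_mem b hb.2 a⟩)
  have k : ∀ m ∈ gen (pr gM g) RI, N ⊓ 𝐂[m * pr gM g 8 * m⁻¹] ≤ ⊥ := fun m hm a ha => by
    have h1 := conj_inv_mem_of_mem_normalizer (nN hm) ha.1
    have h2 : m⁻¹ * a * m ∈ gen (pr gM g) HX := e1.ge ⟨h1.1, mem_centralizer_singleton_iff.2 (by
      calc _ = m⁻¹ * (a * (m * pr gM g 8 * m⁻¹)) * m := by group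
        _ = _ := by rw [mem_centralizer_singleton_iff.1 ha.2]; group)⟩
    have := h.coH.eq h2 (one_mem _) h1.2
    rwa [← inv_inv m, inv_inv m⁻¹, conj_eq_one_iff] at this
  have hz := pr_ne (g := g) hz_M
  have y := h.leR (mem_gen (pr gM g) (show 9 ∈ MI by decide))
  have d := h.cH ▸ card_subgroup_dvd_card 𝐂[g 8]
  have := le_of_cent1_noncyclic (A := VV (pr gM g)) (H := N) (J := ⊥)
    ⟨⟨fun a b => Subtype.ext (lb.ld.Qx_V (lb.ld.V_le a.2) b.2)⟩⟩ (fun hc => by
      obtain ⟨a, ha, e⟩ := isCyclic_iff_exists_zpowers.1 hc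
      have sq : a * a = 1 := by
        rcases lb.ld.memV.1 ha with rfl | rfl | rfl | rfl
        exacts [mul_one _, lb.es.zz, lb.ld.xx, by rw [← lb.yx, conj_mul, lb.ld.xx]; simp]
      have e1 := ((mem_zp2 sq).1 (e ▸ mem_sup_left (mem_zpowers _) : pr gM g 8 ∈ _)).resolve_left hz
      have e2 := ((mem_zp2 sq).1 (e ▸ mem_sup_right (mem_zpowers _) : pr gM g 0 ∈ _)).resolve_left (lb.ld.x_ne hz)
      exact lb.ld.x_ne_z hz (e2.trans e1.symm))
    ((sup_le (zpowers_le.2 (mem_gen _ (by decide))) (zpowers_le.2 (mem_gen _ (by decide)))).trans nN)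
    (by
      rw [lb.ld.card_V hz]
      obtain ⟨e, he⟩ := d
      exact Nat.Coprime.coprime_dvd_left (⟨e, by rw [he] at c2; linarith⟩ : Nat.card N ∣ 315) (by norm_num))
    fun a ha a1 => by
      rcases (lb.ld.memV.1 ha).resolve_left a1 with rfl | rfl | rfl
      · simpa using k 1 (one_mem _)
      · exact lb.yz ▸ k _ y
      · have := k _ (mul_mem y y)
        rwa [show pr gM g 9 * pr gM g 9 * pr gM g 8 * (pr gM g 9 * pr gM g 9)⁻¹ =
          pr gM g 9 * (pr gM g 9 * pr gM g 8 * (pr gM g 9)⁻¹) * (pr gM g 9)⁻¹ by group, lb.yz, lb.yx] at this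
  rw [le_bot_iff.1 this, card_bot, one_mul] at c2
  exact c2.symm

theorem iso : Spor.IsoJ2 G := Ico.isoJ2 (j2_of h.sC.snd h.k4 (congrArg Prod.snd h.eu)) (gen_R (f := g) ▸ h.top') h.card
end JB

/-- a group of Hall–Janko type with two classes of involutions is the Hall–Janko group -/
theorem j2_iso {z : G} (hz : orderOf z = 2) (Q : Subgroup ↥𝐂[z]) [Q.Normal]
    (hF : generalizedFittingSubgroup ↥𝐂[z] = Q) (hQ : IsExtraspecial 2 Q) (hc : Nat.card Q = 2 ^ 5)
    (e : ↥𝐂[z] ⧸ Q ≃* Omega (ZMod 2) (quadFormMinus 1 (ZMod 2) 1 1))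
    (hw : ∃ g : G, (∃ hq : g * z * g⁻¹ ∈ 𝐂[z], (⟨g * z * g⁻¹, hq⟩ : ↥𝐂[z]) ∈ Q) ∧ g * z * g⁻¹ ≠ z)
    (hcl : ∃ x y : G, orderOf x = 2 ∧ orderOf y = 2 ∧ ¬ IsConj x y) :
    Spor.IsoJ2 G ∧ Nat.card ↥𝐂[z] = 1920 := by
  obtain ⟨g, rfl, h⟩ := exists_jz
    (typ_of_setting hz Q hF hQ hc ((Nat.card_congr e.toEquiv).trans card_omega_M1) (by simp) hw)
  obtain ⟨g', -, h'⟩ := h.exists_jb fun c => by
    have k : ∀ x : G, orderOf x = 2 → IsConj (g 8) x := fun x hx => by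
      obtain ⟨m, -, e | e⟩ := h.inv le_top (mem_top _) (mem_top x) (by rw [← pow_two, ← hx, pow_orderOf_eq_one])
        fun e => by simp [e] at hx
      exacts [isConj_iff.2 ⟨m, e.symm⟩, c.trans (isConj_iff.2 ⟨m, e.symm⟩)]
    obtain ⟨x, y, hx, hy, n⟩ := hcl
    exact n ((k x hx).symm.trans (k y hy))
  exact ⟨h'.iso, h.cH⟩

end CA.CoT.J
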