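import Cfsg.Agent.Lib.CoT.Sz1
import Cfsg.Agent.Lib.CoT.Sze

/-!
Groups of Suzuki type are isomorphic to the Suzuki group.
-/

set_option autoImplicit false

namespace CA.CoT.S
open CA.Fi Subgroup CA CA.Ex2 Cfsg Equiv CA.CoT CA.F24
open scoped commutatorElement

local notation "gM" => mdlN 1792 nM nM_ok

theorem rel_R : TC.SuzRel (gM 24) (gM 25) (gM 26) (gM 27) (gM 28) (gM 29) (gM 30) := sM.suz M_S
theorem gen_R : gen gM RI = closure {gM 24, gM 25, gM 26, gM 27, gM 28, gM 29, gM 30} := by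
  rw [gen]; congr 1; ext; simp [RI, eq_comm]
theorem card_R : Nat.card (gen gM RI) = 448345497600 := le_antisymm (gen_R ▸ rel_R.card_le.2)
  (lR_ok.2 ▸ mdl_lb (by norm_num) (by norm_num) nM_ok tM_eq lR_ok.1)

theorem iso_R : Nonempty (gen gM RI ≃* Spor.Suz) := by
  obtain ⟨φ, h1, h2, h3, h4, h5, h6, h7⟩ := rel_R.hom
  have e : φ.range = gen gM RI := by
    rw [MonoidHom.range_eq_map, ← TC.closure_Suz, MonoidHom.map_closure, gen_R]
    simp only [Set.image_insert_eq, Set.image_singleton, h1, h2, h3, h4, h5, h6, h7]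
  haveI := TC.card_Suz_le.1
  have := φ.rangeRestrict_surjective.bijective_of_nat_card_le (by rw [e, card_R]; exact TC.card_Suz_le.2)
  exact ⟨(MulEquiv.subgroupCongr e.symm).trans (MulEquiv.ofBijective _ this).symm⟩

variable {G : Type*} [Group G] [Finite G] {g : ℕ → G}

namespace SZ
variable (h : SZ g)
include h

theorem cI : Nat.card (gen (pr gM g) MI) ≤ 448345497600 := (card_le_of_le (h.sH.le M_M)).trans h.cM
theorem eR : gen gM RI = gen gM MI :=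
  eq_of_le_of_card_le (sM.le M_R) (((card_fst_le MI).trans h.cI).trans card_R.ge)
theorem fM : Fun (gen (pr gM g) MI) := fun_of_card (h.cI.trans (h.eR ▸ card_R.ge))
theorem coM : CoFun (gen (pr gM g) MI) := h.fM.cofun fun N h1 h2 h3 => by
  have a1 := h3 (HI 6) (by decide) h.L.cH
  have c := cofun_of_card (h.cY.trans (by rw [h.py.2.1, h.py.2.2.1]))
  have a2 := h3 CY (by decide) c
  rw [h.L.cH.card_gen, h.L.eH, h.cH, ← h.eR, card_R] at a1
  rw [c.card_gen, h.py.2.1, h.py.2.2.1, ← h.eR, card_R] at a2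
  rw [← h.eR] at h1 h2
  refine bot_of_nc (s := 34488115200) (m := 55) (by norm_num) (by norm_num) nM_ok tM_eq M_nc (by norm_num) card_R
    (by norm_num) (by decide) (fun d hd e he => ?_) M_t lR_ok M_b h1 h2 (Nat.dvd_gcd
      (Nat.dvd_of_mul_dvd_mul_right (k := 3317760) (n := 135135) (by norm_num) a1)
      (Nat.dvd_of_mul_dvd_mul_right (k := 9797760) (n := 45760) (by norm_num) a2))
  have k : ∀ d ∈ Nat.divisors 55, ∀ e ∈ Nat.divisors 55, e ∣ d → d ≡ e [MOD 13] → d ≤ e := by decide +kernel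
  exact k d (Nat.mem_divisors.2 ⟨hd, by norm_num⟩) e (Nat.mem_divisors.2 ⟨he.trans hd, by norm_num⟩) he

theorem main : Nonempty (G ≃* Spor.Suz) ∧ orderOf (g 18) = 2 ∧ ¬ IsConj (g 8) (g 18) ∧
    ∀ a : G, a * a = 1 → a ≠ 1 → IsConj a (g 8) ∨ IsConj a (g 18) := by
  obtain ⟨e, -⟩ := h.fM.exists_equiv h.coM
  have cA : Nat.card (gen g MI) = 448345497600 := by rw [← Nat.card_congr e.toEquiv, ← h.eR, card_R]
  have s : Snd e3 (sb g sel3) := (sM.known (by simpa using h.fM)).snd.sb sel3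
  have d : SndN d3 (sb g sel3) := (sD.known (by simpa using h.coM)).sb sel3
  have lb : LB 6 12 (sb g sel3) := h.L.lb.sb (by decide) (by decide) (by
    have := map_mono (f := MonoidHom.snd _ G) (h.le (I := [18, 21]) (J := [10, 11]) (by decide +kernel))
    rwa [map_snd_gen, map_snd_gen] at this)
  have rep := s.rep lb.es M_rep3
  have hC : gen (sb g sel3) (HI 6) ≤ 𝐂[g 8] := by rw [gen_sb, ← h.eH]; exact gen_mono g (by decide)
  have hH : 𝐂[g 8] ≤ gen g MI := h.eH ▸ gen_mono g (by decide)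
  have hI : gen (sb g sel3) I3 ≤ gen g MI := by rw [gen_sb]; exact gen_mono g (by decide)
  have cT : Nat.card (gen (sb g sel3) (BI 6)) ≤ cosL.length * 2 ^ (6 + 1) := by
    have a1 := lb.card_B h.hz
    have a2 := h.sH.snd.tc0 tvc1 tvc2 tvc3
    rw [gen_sb sel3 [10, 11]] at a1
    change _ ≤ _ * Nat.card (gen _ [18, 21]) * 2 at a1
    rw [M_cos.2]; omega
  have cB := (s.cos lb.es h.hz rep hC M_cos.1 cT).1
  rw [M_cos.2] at cB
  have hB := (gen_mono (sb g sel3) fun _ => BI_sub).trans hC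
  have syl : ∀ M : Subgroup G, 𝐂[g 8] ≤ M → ¬ 2 ^ 14 ∣ Nat.card M → SylowIn 2 (gen (sb g sel3) (BI 6)) M :=
    fun M h1 h2 => sylowIn_mk Nat.prime_two (hB.trans h1) (IsPGroup.of_card (n := 13) cB) fun ⟨k, e⟩ => h2 (by
      have := card_mul_relIndex (hB.trans h1)
      rw [cB, e] at this
      exact ⟨k, by omega⟩)
  have e20 : wd (sb g sel3) [20] = g 18 := (mul_one _).trans (sg_even _ 10)
  have o18 : orderOf (g 18) = 2 := e20 ▸ orderOf_eq_prime (s.pow M_7.2.2.2.1) (d _ _ M_7.2.2.2.2)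
  have nc : ¬ IsConj (g 8) (g 18) := fun c => by
    obtain ⟨c, hc⟩ := isConj_iff.1 c
    haveI := Fact.mk (by norm_num : Nat.Prime 7)
    have o7 := orderOf_eq_prime (s.pow M_7.1) (d _ _ M_7.2.1)
    have e1 := s _ _ M_7.2.2.1
    rw [wd_append, e20, wd_cons, show sg (sb g sel3) 20 = g 18 from sg_even _ 10, ← hc] at e1
    have := (𝐂[g 8]).orderOf_dvd_natCard (x := c⁻¹ * wd (sb g sel3) c7 * c⁻¹⁻¹) (mem_centralizer_singleton_iff.2 (by
      calc _ = c⁻¹ * (wd (sb g sel3) c7 * (c * g 8 * c⁻¹)) * c := by group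
        _ = _ := by rw [e1]; group))
    rw [show orderOf (c⁻¹ * wd (sb g sel3) c7 * c⁻¹⁻¹) = _ from (MulAut.conj c⁻¹).orderOf_eq _, o7, h.cH] at this
    norm_num at this
  have inv : ∀ M : Subgroup G, 𝐂[g 8] ≤ M → ¬ 2 ^ 14 ∣ Nat.card M → ∀ a ∈ M, a * a = 1 → a ≠ 1 → ∃ k ∈ M, ∃ b,
      a = k * b * k⁻¹ ∧ ((∃ m ∈ gen g MI, b = m * g 18 * m⁻¹) ∨ ((∃ m ∈ gen g MI, b = m * g 8 * m⁻¹) ∧
      (b * g 8 = 1 ∨ ∃ m, b * g 8 = m * g 8 * m⁻¹))) := fun M h1 h2 a ha aa a1 => by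
    obtain ⟨k, hk, b, e, hb⟩ := s.invol d lb.es h.hz rep hC M_cos.1 M_cls cT (syl M h1 h2) ha aa a1
    rw [e20] at hb
    exact ⟨k, sup_le le_rfl (hC.trans h1) hk, b, e, hb.imp (fun ⟨m, hm, e⟩ => ⟨m, hI hm, e⟩)
      fun ⟨⟨m, hm, e⟩, r⟩ => ⟨⟨m, hI hm, e⟩, r.imp_right fun ⟨m, _, e⟩ => ⟨m, e⟩⟩⟩
  have sq : ∀ t, IsConj (g 8) t → t * t = 1 ∧ t ≠ 1 := fun t ht => by
    obtain ⟨c, rfl⟩ := isConj_iff.1 ht
    exact ⟨by rw [conj_mul, h.L.lb.es.zz]; simp, fun e => h.hz (conj_eq_one_iff.1 e)⟩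
  have no : ∀ k m : G, ¬ IsConj (g 8) (k * (m * g 18 * m⁻¹) * k⁻¹) := fun k m c =>
    nc (c.trans (isConj_iff.2 ⟨(k * m)⁻¹, by group⟩))
  have top : gen g MI = ⊤ := top_of h.L.lb.es.zz hH (fun t ht c => by
      obtain ⟨k, hk, b, rfl, ⟨m, -, rfl⟩ | ⟨⟨m, hm, rfl⟩, -⟩⟩ :=
        inv _ hH (by rw [cA]; norm_num) t ht (sq t c).1 (sq t c).2
      exacts [absurd c (no k m), ⟨_, mul_mem hk hm, by group⟩])
    (fun t c c1 c2 => by
      obtain ⟨k, hk, b, rfl, ⟨m, -, rfl⟩ | ⟨-, r⟩⟩ := inv _ le_rfl (by rw [h.cH]; norm_num) t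
        (mem_centralizer_singleton_iff.2 c1) (sq t c).1 (sq t c).2
      · exact absurd c (no k m)
      have e1 : k * b * k⁻¹ * g 8 = k * (b * g 8) * k⁻¹ := by
        rw [mul_assoc (k * b), mem_centralizer_singleton_iff.1 (inv_mem hk)]; group
      rcases r with r | ⟨m, r⟩
      · rw [r, mul_one, mul_inv_cancel] at e1
        exact absurd (by rw [eq_inv_of_mul_eq_one_left e1, h.L.lb.es.zinv]) c2
      · exact isConj_iff.2 ⟨k * m, by rw [e1, r]; group⟩)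
    (by norm_num : Nat.Prime 11) (by norm_num : Nat.Prime 13) (r := 945) (s := 3135283200) (by norm_num) (by norm_num)
    (by rw [cA, h.cH]) (by rw [cA]) (by norm_num) fun a ha b hb oa ob e1 => by
      refine no_comm_mdl (by norm_num) (by norm_num) nM_ok tM_eq M_nc (by norm_num) (by norm_num) (s := 34488115200)
        (s' := 40758681600) card_R (by norm_num) card_R (by norm_num) (h.eR.ge (e.symm ⟨b, hb⟩).2)
        (h.eR.ge (e.symm ⟨a, ha⟩).2) (by rw [orderOf_coe, MulEquiv.orderOf_eq, ← ob, orderOf_mk])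
        (by rw [orderOf_coe, MulEquiv.orderOf_eq, ← oa, orderOf_mk]) ?_
      rw [← coe_mul, ← coe_mul, ← map_mul, ← map_mul]
      exact congrArg (fun x => (e.symm x).1) (Subtype.ext e1.symm)
  obtain ⟨ι⟩ := iso_R
  refine ⟨⟨((topEquiv.symm.trans (MulEquiv.subgroupCongr top.symm)).trans e.symm).trans
    ((MulEquiv.subgroupCongr h.eR.symm).trans ι)⟩, o18, nc, fun a aa a1 => ?_⟩
  obtain ⟨k, -, b, rfl, ⟨m, -, rfl⟩ | ⟨⟨m, -, rfl⟩, -⟩⟩ :=
    inv _ hH (by rw [cA]; norm_num) a (top ▸ mem_top a) aa a1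
  exacts [Or.inr (isConj_iff.2 ⟨(k * m)⁻¹, by group⟩), Or.inl (isConj_iff.2 ⟨(k * m)⁻¹, by group⟩)]

theorem three {y : G} (hy : y ∈ 𝐂[g 8]) (oy : orderOf y = 3) (c : Nat.card ↥⁅gen g (qI 6), zpowers y⁆ ≤ 8) : PY y := by
  obtain ⟨c1, c2⟩ := h.sH.snd.syl h.L.lb.es h.hz (fun c hc => h.rep c (by revert hc; generalize c / 2 = i; revert i; decide))
    M_syl.1 (h.coH.nodup M_syl.2.2.1 (nodup_of_fp nM_ok M_syl.2.1)) (M_syl.2.2.2 ▸ h.sH.snd.tc0 tpc1 tpc2 tpc3)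
  rw [M_syl.2.2.2] at c1
  have l : gen g [11, 12, 13, 23] ≤ 𝐂[g 8] := h.eH ▸ gen_mono g (by decide)
  obtain ⟨k, hk, e⟩ := (sylowIn_mk Nat.prime_three l (IsPGroup.of_card (n := 4) c1) fun ⟨k, e⟩ => by
    have := card_mul_relIndex l
    rw [c1, e, h.cH] at this
    omega).exists_conj_mem hy (piElt_of_pow_eq_one ((piNum_prime Nat.prime_three).2 rfl) (oy ▸ pow_orderOf_eq_one y))
  have e1 : y = k⁻¹ * (k * y * k⁻¹) * k⁻¹⁻¹ := by group
  rcases c2 _ e (by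
    have := card_cj k ⁅gen g (qI 6), zpowers y⁆
    rw [cj, map_commutator, MonoidHom.map_zpowers, ← cj, cj_eq_of_mem_normalizer (h.L.lq.le_norm hk)] at this
    exact this.le.trans c) with e2 | ⟨m, e2 | e2⟩
  · rw [conj_eq_one_iff.1 e2] at oy; simp at oy
  · rw [e1, e2, show wd g [22] = g 11 from (mul_one _).trans (sg_even g 11)]; exact (h.py.1.conj m).conj _
  · rw [e1, e2, show wd g [22] = g 11 from (mul_one _).trans (sg_even g 11)]; exact (h.py.1.inv.conj m).conj _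
end SZ

section
variable {z : G} (hz : orderOf z = 2) (Q : Subgroup ↥𝐂[z]) [Q.Normal] (hF : generalizedFittingSubgroup ↥𝐂[z] = Q)
  (hQ : IsExtraspecial 2 Q) (hc : Nat.card Q = 2 ^ 7) (e : ↥𝐂[z] ⧸ Q ≃* Omega (ZMod 2) (quadFormMinus 2 (ZMod 2) 1 1))
  (hw : ∃ g : G, (∃ hq : g * z * g⁻¹ ∈ 𝐂[z], (⟨g * z * g⁻¹, hq⟩ : ↥𝐂[z]) ∈ Q) ∧ g * z * g⁻¹ ≠ z)
include hz hF hQ hc e hw

theorem sz_of : ∃ g : ℕ → G, g 8 = z ∧ gen g (qI 6) = Q.map (𝐂[z]).subtype ∧ SZ g :=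
  exists_sz (typ_of_setting hz Q hF hQ hc ((Nat.card_congr e.toEquiv).trans card_omega_M2) (by simp) hw)

/-- a group of Suzuki type is the Suzuki group -/
theorem suz_iso : Nonempty (G ≃* Spor.Suz) := by
  obtain ⟨g, -, -, h⟩ := sz_of hz Q hF hQ hc e hw
  exact h.main.1

theorem suz_two : ∃ a b : G, orderOf a = 2 ∧ orderOf b = 2 ∧ ¬ IsConj a b ∧
    ∀ x : G, orderOf x = 2 → IsConj x a ∨ IsConj x b := by
  obtain ⟨g, rfl, -, h⟩ := sz_of hz Q hF hQ hc e hw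
  exact ⟨_, _, hz, h.main.2.1, h.main.2.2.1, fun x hx => h.main.2.2.2 x
    (by rw [← pow_two, ← hx, pow_orderOf_eq_one]) fun e => by simp [e] at hx⟩

theorem suz_three (Y : Subgroup ↥𝐂[z]) (hY : Nat.card Y = 3) (hQY : Nat.card ↥⁅Q, Y⁆ = 8) :
    ∃ y, PY y ∧ Y.map (𝐂[z]).subtype = zpowers y := by
  obtain ⟨g, rfl, e1, h⟩ := sz_of hz Q hF hQ hc e hw
  haveI := Fact.mk Nat.prime_three
  obtain ⟨y, hy⟩ := exists_prime_orderOf_dvd_card' (G := Y) 3 hY.symm.dvd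
  have oy : orderOf (y : G) = 3 := by rw [orderOf_coe, orderOf_coe, hy]
  have e2 : Y.map (𝐂[g 8]).subtype = zpowers (y : G) := (eq_of_le_of_card_le (zpowers_le.2 (mem_map_of_mem _ y.2))
    (by rw [card_map_of_injective (subtype_injective _), hY, Nat.card_zpowers]; exact oy.ge)).symm
  exact ⟨y, h.three y.1.2 oy (by
    rw [e1, ← e2, ← map_commutator, card_map_of_injective (subtype_injective _), hQY]), e2⟩
end

end CA.CoT.S
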