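import Cfsg.Agent.Lib.CoT.Grp

/-!
Groups in which a class of involutions meets the centralizer of one of them in a four-group.
-/

set_option autoImplicit false

namespace CA.CoT
open Subgroup CA CA.Blk CA.Ex2 Cfsg

variable {G : Type*} [Group G]

theorem refl_conj {a b : G} (ha : a * a = 1) (hb : b * b = 1) (k : ℕ) : ∃ j : ℕ,
    (a * b) ^ k * a = (a * b) ^ j * a * ((a * b) ^ j)⁻¹ ∨
    (a * b) ^ k * a = (a * b) ^ j * a * b * ((a * b) ^ j * a)⁻¹ := by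
  have h := dih_inv ha hb
  rcases Nat.even_or_odd' k with ⟨j, rfl | rfl⟩
  · exact ⟨j, Or.inl (inv_pow_conj h j).symm⟩
  · refine ⟨j, Or.inr ?_⟩
    have h5 : a * b * a * (a * b) * (a * b * a)⁻¹ = (a * b)⁻¹ := by
      calc _ = a * b * (a * (a * b) * a⁻¹) * (a * b)⁻¹ := by group
        _ = _ := by rw [h]; group
    have := inv_pow_conj h5 j
    rw [pow_succ, mul_assoc _ (a * b), ← this, mul_inv_rev, inv_eq_of_mul_eq_one_right ha]; group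

/-- the elements of the four-group -/
def I4 (z x v : G) : Prop := v = 1 ∨ v = z ∨ v = x ∨ v = z * x

/-- the setting -/
structure A5S (X : Subgroup G) (z x y : G) : Prop where
  zX : z ∈ X
  yX : y ∈ X
  zz : z * z = 1
  z1 : z ≠ 1
  y3 : y * y * y = 1
  yz : y * z * y⁻¹ = x
  yx : y * x * y⁻¹ = z * x
  tri : ∀ g ∈ X, Commute (g * z * g⁻¹) z → I4 z x (g * z * g⁻¹)
  dec : ∀ a ∈ X, Commute a z → ∃ v w, I4 z x v ∧ a = v * w ∧ Commute w y ∧ Commute w z ∧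
    (∀ g ∈ X, Commute (w ^ 2) g) ∧ (w ^ 12 = 1 → w ^ 2 = 1)

/-- the class -/
def D5 (X : Subgroup G) (z a : G) : Prop := ∃ g ∈ X, a = g * z * g⁻¹

namespace A5S
variable {X : Subgroup G} {z x y : G} (h : A5S X z x y)
include h

theorem xx : x * x = 1 := by rw [← h.yz, conj_mul, h.zz]; simp
theorem xz : x * z = z * x := by
  have : z * x * (z * x) = 1 := by rw [← h.yx, conj_mul, h.xx]; simp
  rw [mul_eq_one_iff_eq_inv, mul_inv_rev, inv_eq_of_mul_eq_one_right h.xx, inv_eq_of_mul_eq_one_right h.zz] at this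
  exact this.symm
theorem yzx : y * (z * x) * y⁻¹ = z := by
  rw [← conj_mul, h.yz, h.yx, ← mul_assoc, h.xz, mul_assoc, h.xx, mul_one]
theorem yi : y⁻¹ = y * y := inv_eq_of_mul_eq_one_left h.y3
theorem xz1 : x ≠ z := fun e => h.z1 (by
  have := h.yx
  rwa [e, h.zz, conj_eq_one_iff] at this)
theorem x1 : x ≠ 1 := fun e => h.z1 (conj_eq_one_iff.1 (h.yz.trans e))
theorem y1 : y ≠ 1 := fun e => h.xz1 (by simpa [e] using h.yz.symm)

/-- the four-group -/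
def V : Subgroup G where
  carrier := {v | I4 z x v}
  one_mem' := Or.inl rfl
  mul_mem' := by
    have z2 : ∀ a, z * (z * a) = a := fun a => by rw [← mul_assoc, h.zz, one_mul]
    have x2 : ∀ a, x * (z * a) = z * (x * a) := fun a => by rw [← mul_assoc, h.xz, mul_assoc]
    rintro a b (ha | ha | ha | ha) (hb | hb | hb | hb) <;> rw [ha, hb] <;>
      simp [I4, mul_assoc, h.zz, h.xx, h.xz, z2, x2]
  inv_mem' := by
    rintro a (ha | ha | ha | ha) <;> rw [ha] <;>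
      simp [I4, inv_eq_of_mul_eq_one_right h.xx, inv_eq_of_mul_eq_one_right h.zz, h.xz]

theorem zV : z ∈ h.V := Or.inr (Or.inl rfl)
theorem xV : x ∈ h.V := Or.inr (Or.inr (Or.inl rfl))
theorem VX {v : G} (hv : v ∈ h.V) : v ∈ X := by
  have : x ∈ X := h.yz ▸ mul_mem (mul_mem h.yX h.zX) (inv_mem h.yX)
  rcases hv with e | e | e | e <;> rw [e]
  exacts [one_mem _, h.zX, this, mul_mem h.zX this]
theorem cV {a v : G} (h1 : Commute a z) (h2 : Commute a x) (hv : v ∈ h.V) : Commute a v := by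
  rcases hv with e | e | e | e <;> rw [e]
  exacts [Commute.one_right _, h1, h2, h1.mul_right h2]
theorem VV {u v : G} (hu : u ∈ h.V) (hv : v ∈ h.V) : Commute u v :=
  (h.cV (h.cV (Commute.refl z) h.xz.symm hv).symm (h.cV h.xz (Commute.refl x) hv).symm hu).symm
theorem sqV {v : G} (hv : v ∈ h.V) : v * v = 1 := by
  rcases hv with e | e | e | e <;> rw [e]
  exacts [mul_one _, h.zz, h.xx, by rw [← h.yx, conj_mul, h.xx]; simp]
theorem yV {v : G} (hv : v ∈ h.V) : y * v * y⁻¹ ∈ h.V := by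
  rcases hv with e | e | e | e <;> rw [e]
  exacts [by simpa using one_mem _, h.yz ▸ h.xV, h.yx ▸ mul_mem h.zV h.xV, h.yzx.symm ▸ h.zV]
theorem yV' {v : G} (hv : v ∈ h.V) : y⁻¹ * v * y ∈ h.V := by
  have := h.yV (h.yV hv)
  rwa [show y * (y * v * y⁻¹) * y⁻¹ = y * y * v * (y * y)⁻¹ by group, ← h.yi, inv_inv] at this
theorem tr {v : G} (hv : v ∈ h.V) (v1 : v ≠ 1) : ∃ m, (m = 1 ∨ m = y ∨ m = y⁻¹) ∧ v = m * z * m⁻¹ := by
  rcases hv with e | e | e | e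
  · exact absurd e v1
  · exact ⟨1, by simp, by simpa using e⟩
  · exact ⟨y, by simp, e.trans h.yz.symm⟩
  · exact ⟨y⁻¹, by simp, by rw [e]; nth_rewrite 2 [← h.yzx]; group⟩
theorem Vy {v : G} (hv : v ∈ h.V) (c : Commute v y) : v = 1 := by
  by_contra v1
  obtain ⟨m, hm, rfl⟩ := h.tr hv v1
  have : Commute m y := by
    rcases hm with rfl | rfl | rfl
    exacts [Commute.one_left _, Commute.refl _, (Commute.refl _).inv_left]
  have e := (this.inv_left.mul_left c).mul_left this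
  rw [show m⁻¹ * (m * z * m⁻¹) * m = z by group] at e
  exact h.xz1 (by rw [← h.yz, ← e.eq, mul_inv_cancel_right])
theorem yv {v : G} (hv : v ∈ h.V) : ∃ m ∈ h.V, y * v = m * y * m⁻¹ := by
  have k : ∀ m ∈ h.V, y * (y⁻¹ * m * y * m) = m * y * m⁻¹ := fun m hm => by
    rw [inv_eq_of_mul_eq_one_right (h.sqV hm)]; group
  have e1 : y⁻¹ * z * y = z * x := by nth_rewrite 1 [← h.yzx]; group
  have e2 : y⁻¹ * x * y = z := by rw [← h.yz]; group
  have e3 : y⁻¹ * (z * x) * y = x := by rw [← h.yx]; group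
  rcases hv with e | e | e | e <;> rw [e]
  · exact ⟨1, one_mem _, by simp⟩
  · exact ⟨_, mul_mem h.zV h.xV, by
      rw [← k _ (mul_mem h.zV h.xV), e3, ← mul_assoc x, h.xz, mul_assoc z, h.xx, mul_one]⟩
  · exact ⟨_, h.zV, by rw [← k _ h.zV, e1, ← h.xz, mul_assoc x, h.zz, mul_one]⟩
  · exact ⟨_, h.xV, by rw [← k _ h.xV, e2]⟩
theorem cA {a v : G} (ha : a ∈ X) (c : Commute a z) (hv : v ∈ h.V) : Commute a v := by
  obtain ⟨u, w, hu, rfl, c1, c2, -⟩ := h.dec a ha c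
  exact (h.VV hu hv).mul_left (h.cV c2 (h.yz ▸ (c1.mul_right c2).mul_right c1.inv_right) hv)

variable [Finite G]
/-- the normalizer of the four-group -/
def N : Subgroup G := X ⊓ 𝐍(h.V)
theorem yN : y ∈ h.N := ⟨h.yX, mem_normalizer_of_cj_le (by rintro _ ⟨v, hv, rfl⟩; exact h.yV hv)⟩
theorem AN {a : G} (ha : a ∈ X) (c : Commute a z) : a ∈ h.N := ⟨ha, mem_normalizer_of_cj_le (by
  rintro _ ⟨v, hv, rfl⟩
  change a * v * a⁻¹ ∈ _
  rwa [(h.cA ha c hv).eq, mul_inv_cancel_right])⟩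
theorem VN {v : G} (hv : v ∈ h.V) : v ∈ h.N := h.AN (h.VX hv) (h.VV hv h.zV)
theorem mN {m : G} (hm : m = 1 ∨ m = y ∨ m = y⁻¹) : m ∈ h.N := by
  rcases hm with e | e | e <;> rw [e]
  exacts [one_mem _, h.yN, inv_mem h.yN]
theorem cA' {a v : G} (ha : a ∈ X) (hv : v ∈ h.V) (v1 : v ≠ 1) (c : Commute a v) : Commute a z := by
  obtain ⟨m, hm, rfl⟩ := h.tr hv v1
  have m1 := h.mN hm
  have := h.cA (a := m⁻¹ * a * m) (mul_mem (mul_mem (inv_mem m1.1) ha) m1.1) (by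
    simpa [mul_assoc] using c.conj m⁻¹) (conj_inv_mem_of_mem_normalizer m1.2 h.zV)
  simpa [mul_assoc] using this.conj m
theorem NV {g v : G} (hg : g ∈ X) (hv : v ∈ h.V) (v1 : v ≠ 1) (e : g * v * g⁻¹ ∈ h.V) : g ∈ h.N := by
  obtain ⟨m, hm, e1⟩ := h.tr e (mt conj_eq_one_iff.1 v1)
  obtain ⟨n, hn, rfl⟩ := h.tr hv v1
  have := h.AN (a := m⁻¹ * g * n) (mul_mem (mul_mem (inv_mem (h.mN hm).1) hg) (h.mN hn).1) (by
    refine mul_inv_eq_iff_eq_mul.1 ?_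
    calc _ = m⁻¹ * (g * (n * z * n⁻¹) * g⁻¹) * m := by group
      _ = z := by rw [e1]; group)
  simpa [mul_assoc] using mul_mem (mul_mem (h.mN hm) this) (inv_mem (h.mN hn))
theorem nf {n : G} (hn : n ∈ h.N) : ∃ m a, (m = 1 ∨ m = y ∨ m = y⁻¹) ∧ a ∈ X ∧ Commute a z ∧ n = m * a := by
  obtain ⟨m, hm, e⟩ := h.tr (conj_mem_of_mem_normalizer hn.2 h.zV) (mt conj_eq_one_iff.1 h.z1)
  refine ⟨m, m⁻¹ * n, hm, mul_mem (inv_mem (h.mN hm).1) hn.1, mul_inv_eq_iff_eq_mul.1 ?_, by group⟩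
  calc _ = m⁻¹ * (n * z * n⁻¹) * m := by group
    _ = z := by rw [e]; group
theorem inv_comm {n : G} (hn : n ∈ h.N) (nn : n * n = 1) : Commute n z := by
  obtain ⟨m, a, hm, ha, c, rfl⟩ := h.nf hn
  have k : ∀ v ∈ h.V, m * a * v * (m * a)⁻¹ = m * v * m⁻¹ := fun v hv => by
    rw [mul_assoc m, (h.cA ha c hv).eq]; group
  have e : m * (m * z * m⁻¹) * m⁻¹ = z := by
    rw [← k _ (conj_mem_of_mem_normalizer (h.mN hm).2 h.zV), ← k _ h.zV]
    calc _ = (m * a * (m * a)) * z * (m * a * (m * a))⁻¹ := by group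
      _ = z := by rw [nn]; simp
  rcases hm with rfl | rfl | rfl
  · simpa using c
  · rw [h.yz, h.yx] at e; exact absurd (by simpa using e) h.x1
  · rw [show y⁻¹ * (y⁻¹ * z * y⁻¹⁻¹) * y⁻¹⁻¹ = (y * y)⁻¹ * z * (y * y) by group, ← h.yi, inv_inv, h.yz] at e
    exact absurd e h.xz1

theorem cube_comm {n : G} (hn : n ∈ h.N) : Commute (n ^ 3) z := by
  obtain ⟨m, a, hm, ha, c, rfl⟩ := h.nf hn
  have k : ∀ v ∈ h.V, m * a * v * (m * a)⁻¹ = m * v * m⁻¹ := fun v hv => by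
    rw [mul_assoc m, (h.cA ha c hv).eq]; group
  have v1 := conj_mem_of_mem_normalizer (h.mN hm).2 h.zV
  have m3 : m * m * m = 1 := by
    rcases hm with rfl | rfl | rfl
    exacts [by simp, h.y3, by rw [← mul_inv_rev, ← mul_inv_rev, ← mul_assoc, h.y3, inv_one]]
  refine mul_inv_eq_iff_eq_mul.1 ?_
  calc _ = m * a * (m * a * (m * a * z * (m * a)⁻¹) * (m * a)⁻¹) * (m * a)⁻¹ := by rw [pow_three]; group
    _ = (m * m * m) * z * (m * m * m)⁻¹ := by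
      rw [k _ h.zV, k _ v1, k _ (conj_mem_of_mem_normalizer (h.mN hm).2 v1)]; group
    _ = z := by rw [m3]; simp

omit [Finite G] in
theorem Dp {a : G} (ha : D5 X z a) : a ∈ X ∧ a * a = 1 ∧ a ≠ 1 := by
  obtain ⟨g, hg, rfl⟩ := ha
  exact ⟨mul_mem (mul_mem hg h.zX) (inv_mem hg), by rw [conj_mul, h.zz]; simp, mt conj_eq_one_iff.1 h.z1⟩
omit h [Finite G] in
theorem Dc {a g : G} (ha : D5 X z a) (hg : g ∈ X) : D5 X z (g * a * g⁻¹) := by
  obtain ⟨k, hk, rfl⟩ := ha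
  exact ⟨_, mul_mem hg hk, by group⟩
theorem VD {v : G} (hv : v ∈ h.V) (v1 : v ≠ 1) : D5 X z v := by
  obtain ⟨m, hm, e⟩ := h.tr hv v1
  exact ⟨m, (h.mN hm).1, e⟩
theorem DV {d v : G} (hd : D5 X z d) (hv : v ∈ h.V) (v1 : v ≠ 1) (c : Commute d v) : d ∈ h.V := by
  have := h.cA' (h.Dp hd).1 hv v1 c
  obtain ⟨g, hg, rfl⟩ := hd
  exact h.tri g hg this
theorem DN {d : G} (hd : D5 X z d) (hn : d ∈ h.N) : d ∈ h.V :=
  h.DV hd h.zV h.z1 (h.inv_comm hn (h.Dp hd).2.1)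
theorem T0 {a g : G} (ha : D5 X z a) (hg : g ∈ X) (c : Commute a (g * z * g⁻¹)) : g⁻¹ * a * g⁻¹⁻¹ ∈ h.V :=
  h.DV (Dc ha (inv_mem hg)) h.zV h.z1 (by simpa [mul_assoc] using c.conj g⁻¹)
theorem T1 {a b : G} (ha : D5 X z a) (hb : D5 X z b) (c : Commute a b) (n : a * b ≠ 1) : D5 X z (a * b) := by
  obtain ⟨g, hg, rfl⟩ := hb
  have := Dc (h.VD (mul_mem (h.T0 ha hg c) h.zV) fun e => n (by
    calc _ = g * (g⁻¹ * a * g⁻¹⁻¹ * z) * g⁻¹ := by group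
      _ = 1 := by rw [e]; simp)) hg
  simpa [mul_assoc] using this
theorem T2 {a b c : G} (ha : D5 X z a) (hb : D5 X z b) (hc : D5 X z c) (c1 : Commute a b) (c2 : Commute c b) :
    Commute a c := by
  obtain ⟨g, hg, rfl⟩ := hb
  simpa [mul_assoc] using (h.VV (h.T0 ha hg c1) (h.T0 hc hg c2)).conj g
theorem Dr {a b : G} (ha : D5 X z a) (hb : D5 X z b) (k : ℕ) : D5 X z ((a * b) ^ k * a) := by
  have m := fun j => pow_mem (mul_mem (h.Dp ha).1 (h.Dp hb).1) j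
  obtain ⟨j, e | e⟩ := refl_conj (h.Dp ha).2.1 (h.Dp hb).2.1 k <;> rw [e]
  exacts [Dc ha (m j), Dc hb (mul_mem (m j) (h.Dp ha).1)]
theorem T3 {a b : G} (ha : D5 X z a) (hb : D5 X z b) (n : ¬ Commute a b) {k : ℕ} (c : Commute ((a * b) ^ k) a) :
    (a * b) ^ k = 1 := by
  by_contra t1
  have aa := (h.Dp ha).2.1
  have := h.T1 (h.Dr ha hb k) ha (c.mul_left (Commute.refl a)) (by rwa [mul_assoc, aa, mul_one])
  rw [mul_assoc, aa, mul_one] at this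
  have c2 := c.mul_right ((Commute.refl (a * b)).pow_left k)
  rw [← mul_assoc, aa, one_mul] at c2
  exact n (h.T2 ha this hb c.symm c2.symm)
theorem E1 {a b : G} (ha : D5 X z a) (hb : D5 X z b) (n : ¬ Commute a b) : ∃ j, D5 X z j ∧ j * a * j⁻¹ = b := by
  rcases dih_cases (h.Dp ha).2.1 (h.Dp hb).2.1 with ⟨j, -, e, -⟩ | ⟨k, k1, k2, -⟩
  · exact ⟨_, h.Dr ha hb j, Eq.trans (by group) e⟩
  · exact absurd (h.T3 ha hb n k2) k1

theorem F1 {j j' : G} (hj : D5 X z j) (hj' : D5 X z j') (jV : j ∉ h.V) (hn : j * j' ∈ h.N) :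
    j * j' = 1 ∨ ∃ m ∈ h.V, j * j' = m * y * m⁻¹ ∨ j * j' = m * y⁻¹ * m⁻¹ := by
  by_cases c : Commute j j'
  · exact Or.inl (by
      by_contra n
      exact jV (h.DV hj (h.DN (h.T1 hj hj' c n) hn) n ((Commute.refl j).mul_right c)))
  have P := fun k => h.T3 hj hj' c (k := k)
  have I := dih_inv (h.Dp hj).2.1 (h.Dp hj').2.1
  have Q : ∀ k, (j * j') ^ k * (j * j') ^ k = 1 → (j * j') ^ k = 1 := fun k e => P k (by
    refine (mul_inv_eq_iff_eq_mul.1 ?_).symm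
    rw [← conj_pow, I, inv_pow, inv_eq_of_mul_eq_one_right e])
  obtain ⟨m, a, hm, ha, c1, e⟩ := h.nf hn
  obtain ⟨v, w, hv, rfl, c2, c3, c4, c5⟩ := h.dec a ha c1
  have cw : Commute (m * v) w := Commute.symm (Commute.mul_right (by
    rcases hm with rfl | rfl | rfl
    exacts [Commute.one_right _, c2, c2.inv_right])
    (h.cV c3 (h.yz ▸ (c2.mul_right c3).mul_right c2.inv_right) hv))
  rw [← mul_assoc] at e
  have y3 : y ^ 3 = 1 := by rw [pow_three', h.y3]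
  have k : m = 1 ∨ ∃ n ∈ h.V, m * v = n * y * n⁻¹ ∨ m * v = n * y⁻¹ * n⁻¹ := by
    rcases hm with rfl | rfl | rfl
    · exact Or.inl rfl
    · exact Or.inr ((h.yv hv).imp fun _ e => ⟨e.1, Or.inl e.2⟩)
    · obtain ⟨n, n1, n2⟩ := h.yv (h.yV' (inv_mem hv))
      exact Or.inr ⟨n, n1, Or.inr (by rw [conj_inv.symm, ← n2]; group)⟩
  have k3 : ∀ n, m * v = n * y * n⁻¹ ∨ m * v = n * y⁻¹ * n⁻¹ → (m * v) ^ 3 = 1 := by
    rintro n (e | e) <;> rw [e, conj_pow] <;> simp [y3]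
  have e6 : (j * j') ^ 6 = (w ^ 2) ^ 3 := by
    rw [e, cw.mul_pow, ← pow_mul]
    rcases k with rfl | ⟨n, -, k⟩
    · rw [show 6 = 2 * 3 from rfl, pow_mul, one_mul, pow_two, h.sqV hv]; simp
    · rw [show 6 = 3 * 2 from rfl, pow_mul, k3 n k]; simp
  have w2 := c5 (by
    have := P 6 (e6 ▸ (c4 j (h.Dp hj).1).pow_left 3)
    rw [show 12 = 2 * 3 * 2 from rfl, pow_mul, pow_mul, ← e6, this, one_pow])
  rcases k with rfl | ⟨n, n1, k⟩
  · left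
    simpa using Q 1 (by rw [pow_one, ← pow_two, e, cw.mul_pow, w2, one_mul, pow_two, h.sqV hv, one_mul])
  · have e3 : (j * j') ^ 3 = w := by rw [e, cw.mul_pow, k3 n k, one_mul, pow_succ, w2, one_mul]
    have := Q 3 (by rw [e3, ← pow_two, w2])
    rw [e3] at this
    rw [this, mul_one] at e
    exact Or.inr ⟨n, n1, e ▸ k⟩

theorem G1 {g : G} (hg : g ∈ X) (n : g ∉ h.N) : ∃ j, D5 X z j ∧ j ∉ h.V ∧ j * g ∈ h.N := by
  obtain ⟨j, hj, e⟩ := h.E1 ⟨g, hg, rfl⟩ (h.VD h.zV h.z1) fun c => n (h.NV hg h.zV h.z1 (h.tri g hg c))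
  have := h.AN (mul_mem (h.Dp hj).1 hg) (mul_inv_eq_iff_eq_mul.1 (Eq.trans (by group) e))
  exact ⟨j, hj, fun v => n ((mul_mem_cancel_left (h.VN v)).1 this), this⟩
theorem G2 {j : G} (hj : D5 X z j) (jV : j ∉ h.V) :
    ∃ m ∈ h.V, ∃ j', D5 X z j' ∧ j' * y * j'⁻¹ = y⁻¹ ∧ j = m * j' * m⁻¹ := by
  have jX := (h.Dp hj).1
  obtain ⟨i, hi, e⟩ := h.E1 ⟨j, jX, rfl⟩ (h.VD h.xV h.x1) fun c =>
    jV (h.DN hj (h.NV jX h.zV h.z1 (h.DV ⟨j, jX, rfl⟩ h.xV h.x1 c)))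
  have e1 : i * j * z * (i * j)⁻¹ = x := Eq.trans (by group) e
  have n := h.NV (mul_mem (h.Dp hi).1 jX) h.zV h.z1 (e1 ▸ h.xV)
  have I := dih_inv (h.Dp hj).2.1 (h.Dp hi).2.1
  have ji : j * i = (i * j)⁻¹ := by
    rw [mul_inv_rev, inv_eq_of_mul_eq_one_right (h.Dp hj).2.1, inv_eq_of_mul_eq_one_right (h.Dp hi).2.1]
  rcases h.F1 hj hi jV (ji ▸ inv_mem n) with e2 | ⟨m, hm, e2⟩
  · rw [ji, inv_eq_one] at e2
    exact absurd (by simpa [e2] using e1.symm) h.xz1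
  refine ⟨m, hm, _, Dc hj (inv_mem (h.VX hm)), ?_, by group⟩
  rcases e2 with e2 | e2 <;> rw [e2] at I
  · calc _ = m⁻¹ * (j * (m * y * m⁻¹) * j⁻¹) * m := by group
      _ = _ := by rw [I]; group
  · calc _ = m⁻¹ * (j * (m * y⁻¹ * m⁻¹) * j⁻¹)⁻¹ * m := by group
      _ = _ := by rw [I]; group
theorem H1 {n : G} (hn : n ∈ h.N) : n * y * n⁻¹ ≠ y⁻¹ := fun e => by
  obtain ⟨m, a, hm, ha, c1, rfl⟩ := h.nf hn
  obtain ⟨v, w, hv, rfl, c2, -⟩ := h.dec a ha c1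
  have c : Commute m y := by
    rcases hm with rfl | rfl | rfl
    exacts [Commute.one_left _, Commute.refl _, (Commute.refl _).inv_left]
  have e1 : v * (y * v⁻¹ * y⁻¹) = y := by
    calc _ = m⁻¹ * (m * v * (y * w) * w⁻¹ * v⁻¹ * m⁻¹) * m * y⁻¹ := by group
      _ = m⁻¹ * (y⁻¹ * m) * y⁻¹ := by rw [← c2.eq, ← e]; group
      _ = (y * y)⁻¹ := by rw [← c.inv_right.eq]; group
      _ = y := by rw [← h.yi, inv_inv]
  have := mul_mem hv (h.yV (inv_mem hv))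
  rw [e1] at this
  exact h.y1 (h.Vy this (Commute.refl y))
theorem I1 {c : G} (hc : c ∈ X) (cy : Commute c y) : c ∈ h.N := by
  by_contra n
  obtain ⟨j, hj, jV, hn⟩ := h.G1 hc n
  obtain ⟨m, hm, i, hi, e, rfl⟩ := h.G2 hj jV
  have mi := inv_eq_of_mul_eq_one_right (h.sqV hm)
  have n1 : c⁻¹ * y * c ∈ h.N := by rw [mul_assoc, ← cy.eq]; simpa using h.yN
  have n2 : c⁻¹ * (m * y * m⁻¹) * c ∈ h.N := by
    have := mul_mem (mul_mem (inv_mem hn) (mul_mem (mul_mem (h.VN hm) (inv_mem h.yN)) (inv_mem (h.VN hm)))) hn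
    rw [← e] at this
    convert this using 1
    group
  have v := mul_mem hm (h.yV (inv_mem hm))
  by_cases v1 : m * (y * m⁻¹ * y⁻¹) = 1
  · have := h.Vy hm (mul_inv_eq_iff_eq_mul.1 (by rw [← mul_inv_eq_one, ← v1]; group))
    rw [this, one_mul, inv_one, mul_one] at hn
    exact h.H1 hn (by rw [mul_assoc i, cy.eq, ← e]; group)
  · refine n ((inv_mem_iff (x := c)).1 (h.NV (inv_mem hc) v v1 (h.DN (Dc (h.VD v v1) (inv_mem hc)) ?_)))
    simpa [mul_assoc] using mul_mem n2 (inv_mem n1)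
theorem J1 {j j' : G} (hj : D5 X z j) (hj' : D5 X z j') (e : j * y * j⁻¹ = y⁻¹) (e' : j' * y * j'⁻¹ = y⁻¹) :
    j' = j ∨ j' = j * y ∨ j' = j * y⁻¹ := by
  have c : Commute (j * j') y := mul_inv_eq_iff_eq_mul.1 (by
    calc _ = j * (j' * y * j'⁻¹) * j⁻¹ := by group
      _ = (j * y * j⁻¹)⁻¹ := by rw [e']; group
      _ = y := by rw [e, inv_inv])
  have k : ∀ a, j * j' = a → j' = j * a := fun a e => by rw [← e, ← mul_assoc, (h.Dp hj).2.1, one_mul]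
  have k2 : ∀ m ∈ h.V, Commute (m * y * m⁻¹) y → m * y * m⁻¹ = y := fun m hm c => by
    have := h.Vy (mul_mem hm (h.yV (inv_mem hm))) (by
      simpa [mul_assoc] using c.mul_left (Commute.refl y).inv_left)
    rw [← mul_inv_eq_one, ← this]; group
  rcases h.F1 hj hj' (fun v => h.H1 (h.VN v) e) (h.I1 (mul_mem (h.Dp hj).1 (h.Dp hj').1) c) with
    e1 | ⟨m, hm, e1 | e1⟩
  · exact Or.inl (by simpa using k _ e1)
  · rw [e1] at c; exact Or.inr (Or.inl (k _ (e1.trans (k2 m hm c))))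
  · rw [e1, conj_inv.symm] at c
    exact Or.inr (Or.inr (k _ (by rw [e1, conj_inv.symm, k2 m hm (by simpa using c.inv_left)])))

theorem K1 {j : G} (hj : D5 X z j) (e : j * y * j⁻¹ = y⁻¹) :
    ∃ i, D5 X z i ∧ i * y * i⁻¹ = y⁻¹ ∧ (i * z) ^ 3 = 1 := by
  have jV : j ∉ h.V := fun v => h.H1 (h.VN v) e
  have jj := (h.Dp hj).2.1
  have ji := inv_eq_of_mul_eq_one_right jj
  obtain ⟨m, hm, i, hi, e1, e2⟩ := h.G2 (j := j * z * j⁻¹) ⟨j, (h.Dp hj).1, rfl⟩ fun v =>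
    jV (h.DN hj (h.NV (h.Dp hj).1 h.zV h.z1 v))
  obtain ⟨n, hn, e3⟩ : ∃ n, (n = 1 ∨ n = y ∨ n = y⁻¹) ∧ i = j * n := by
    rcases h.J1 hj hi e e1 with e | e | e
    exacts [⟨1, by simp, by simpa using e⟩, ⟨_, by simp, e⟩, ⟨_, by simp, e⟩]
  have n1 : j * n * j⁻¹ = n⁻¹ ∧ n * n * n = 1 ∧ Commute n y := by
    rcases hn with rfl | rfl | rfl
    exacts [by simp, ⟨e, h.y3, Commute.refl _⟩, ⟨by rw [conj_inv.symm, e], by
      rw [← mul_inv_rev, ← mul_inv_rev, ← mul_assoc, h.y3, inv_one], (Commute.refl _).inv_left⟩]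
  have nN := h.mN hn
  have hv := conj_mem_of_mem_normalizer nN.2 h.zV
  have hu := conj_inv_mem_of_mem_normalizer nN.2 hm
  have e4 : j * (n * z * n⁻¹) * j⁻¹ = n⁻¹ * m * n * j * (n⁻¹ * m * n)⁻¹ := by
    calc _ = (j * n * j⁻¹) * (j * z * j⁻¹) * (j * n * j⁻¹)⁻¹ := by group
      _ = n⁻¹ * m * n * (n⁻¹ * j * n * n) * (n⁻¹ * m * n)⁻¹ := by rw [e2, e3, n1.1]; group
      _ = n⁻¹ * m * n * (j * (n * n * n)) * (n⁻¹ * m * n)⁻¹ := by nth_rewrite 2 [← n1.1]; group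
      _ = _ := by rw [n1.2.1, mul_one]
  generalize n⁻¹ * m * n = u at hu e4
  have uu := h.sqV hu
  have u1 : u ≠ 1 := fun e => jV (by
    rw [e, one_mul, inv_one, mul_one, mul_inv_eq_iff_eq_mul, mul_right_inj] at e4
    rwa [← e4])
  have e5 : (u * j) ^ 3 = (n * z * n⁻¹ * u)⁻¹ := by
    rw [ji, inv_eq_of_mul_eq_one_right uu] at e4
    rw [eq_inv_iff_mul_eq_one]
    calc _ = u * j * (u * j * u) * (j * (n * z * n⁻¹) * j) * j⁻¹ * u := by rw [pow_three]; group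
      _ = u * j * (u * j * (u * u) * j * u) * j⁻¹ * u := by rw [e4]; group
      _ = 1 := by rw [uu, mul_one, mul_assoc u j j, jj, mul_one, uu, mul_one, mul_inv_cancel_right, uu]
  have e6 := h.T3 (h.VD hu u1) hj (fun c => jV (h.DV hj hu u1 c.symm)) (k := 3)
    (e5 ▸ (h.VV (mul_mem hv hu) hu).inv_left)
  rw [e6, eq_comm, inv_eq_one, mul_eq_one_iff_eq_inv, inv_eq_of_mul_eq_one_right uu] at e5
  refine ⟨_, Dc hj (inv_mem nN.1), ?_, ?_⟩
  · calc _ = n⁻¹ * (j * (n * y * n⁻¹) * j⁻¹) * n := by group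
      _ = _ := by rw [n1.2.2.eq, mul_inv_cancel_right, e, n1.2.2.inv_inv.eq]; group
  · rw [show n⁻¹ * j * n⁻¹⁻¹ * z = (n⁻¹ * j) * (n * z * n⁻¹ * j) * (n⁻¹ * j)⁻¹ by group, conj_pow, e5, e6]; simp

omit [Finite G] in
theorem K2 {j : G} (jj : j * j = 1) (e : j * y * j⁻¹ = y⁻¹) (e1 : (j * z) ^ 3 = 1) :
    (j * y * z) ^ 3 ≠ 1 ∧ (j * y⁻¹ * z) ^ 3 ≠ 1 := by
  have ji := inv_eq_of_mul_eq_one_right jj
  have zi := inv_eq_of_mul_eq_one_right h.zz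
  have k : ∀ i : G, i * i = 1 → (i * z) ^ 3 = 1 → i * z * i⁻¹ = z * i * z⁻¹ := fun i ii e => by
    calc _ = z⁻¹ * i⁻¹ * (i * z * i * z) * i⁻¹ * (i * i)⁻¹ * (z * z)⁻¹ := by
          rw [ii, h.zz, zi, inv_eq_of_mul_eq_one_right ii]; simp [mul_assoc, ← mul_assoc i i, ← mul_assoc z z, ii, h.zz]
      _ = z⁻¹ * i⁻¹ * (i * z) ^ 3 * z⁻¹ * i⁻¹ * i⁻¹ * (i * i)⁻¹ * (z * z)⁻¹ := by rw [pow_three]; group
      _ = _ := by rw [e, ii, h.zz, zi, inv_eq_of_mul_eq_one_right ii]; simp [mul_assoc, ← mul_assoc i i, ii]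
  have k2 : ∀ n v, n * n * n = 1 → j * n * j⁻¹ = n⁻¹ → n * z * n⁻¹ = v → v ∈ h.V → (j * n * z) ^ 3 = 1 → n = 1 :=
    fun n v n3 e2 e3 hv e4 => by
      have e5 := k _ (by
        calc _ = j * n * j⁻¹ * (j * j) * n := by group
          _ = 1 := by rw [e2, jj]; simp) e4
      have e6 : j * (z * v) * j⁻¹ = z * n * z⁻¹ := by
        calc _ = (j * z * j⁻¹) * (j * n * z * (j * n)⁻¹) := by rw [← e3]; group
          _ = z * (j * j) * n * z⁻¹ := by rw [e5, k j jj e1]; group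
          _ = _ := by rw [jj, mul_one]
      have e7 : z * n * z⁻¹ * (z * n * z⁻¹) = 1 := by rw [← e6, conj_mul, h.sqV (mul_mem h.zV hv)]; simp
      rw [conj_mul, conj_eq_one_iff] at e7
      rwa [e7, one_mul] at n3
  exact ⟨fun e2 => h.y1 (k2 y _ h.y3 e rfl (h.yV h.zV) e2), fun e2 => h.y1 (inv_eq_one.1 (k2 y⁻¹ _ (by
    rw [← mul_inv_rev, ← mul_inv_rev, ← mul_assoc, h.y3, inv_one]) (by rw [conj_inv.symm, e]) rfl
    (by simpa using h.yV' h.zV) e2))⟩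

/-- the structure theorem -/
theorem main : X ≤ h.N ∨ ∃ j, D5 X z j ∧ j * y * j⁻¹ = y⁻¹ ∧ (j * z) ^ 3 = 1 ∧
    (∀ S : Subgroup G, X ⊓ 𝐂[z] ≤ S → y ∈ S → j ∈ S → X ≤ S) ∧
    ∀ c, (∀ g ∈ X, c * g * c⁻¹ ∈ X) → Commute c z → Commute c y → Commute c j := by
  refine (em _).imp_right fun n => ?_
  obtain ⟨g, hg, n⟩ := SetLike.not_le_iff_exists.1 n
  obtain ⟨j, hj, jV, -⟩ := h.G1 hg n
  obtain ⟨-, -, j, hj, e, -⟩ := h.G2 hj jV
  obtain ⟨j, hj, e, e1⟩ := h.K1 hj e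
  refine ⟨j, hj, e, e1, fun S h1 h2 h3 g hg => ?_, fun c c1 c2 c3 => ?_⟩
  · have nS : h.N ≤ S := fun n hn => by
      obtain ⟨m, a, hm, ha, c, rfl⟩ := h.nf hn
      refine mul_mem ?_ (h1 ⟨ha, mem_centralizer_singleton_iff.2 c⟩)
      rcases hm with rfl | rfl | rfl
      exacts [one_mem _, h2, inv_mem h2]
    by_contra n
    obtain ⟨i, hi, iV, m⟩ := h.G1 hg (mt (@nS g) n)
    obtain ⟨v, hv, k, hk, e2, rfl⟩ := h.G2 hi iV
    refine n ((mul_mem_cancel_left (mul_mem (mul_mem (nS (h.VN hv)) ?_) (inv_mem (nS (h.VN hv))))).1 (nS m))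
    rcases h.J1 hj hk e e2 with rfl | rfl | rfl
    exacts [h3, mul_mem h3 h2, mul_mem h3 (inv_mem h2)]
  · have e2 : (c * j * c⁻¹ * z) ^ 3 = 1 := by
      rw [mul_assoc, c2.inv_left.eq, ← mul_assoc, mul_assoc c, conj_pow, e1]; simp
    have k := h.K2 (h.Dp hj).2.1 e e1
    rcases h.J1 hj (j' := c * j * c⁻¹) (by
      obtain ⟨g, hg, rfl⟩ := hj
      exact ⟨_, c1 g hg, by
        calc _ = c * g * c⁻¹ * (c * z * c⁻¹) * (c * g * c⁻¹)⁻¹ := by group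
          _ = _ := by rw [c2.eq, mul_inv_cancel_right]⟩) e (by
      calc _ = c * (j * (c⁻¹ * y * c) * j⁻¹) * c⁻¹ := by group
        _ = _ := by rw [c3.inv_left.eq, inv_mul_cancel_right, e, c3.inv_right.eq, mul_inv_cancel_right]) with
      e3 | e3 | e3
    · exact mul_inv_eq_iff_eq_mul.1 e3
    · exact absurd (e3 ▸ e2) k.1
    · exact absurd (e3 ▸ e2) k.2
end A5S

end CA.CoT
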