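import Cfsg.Agent.Lib.CoT.A7a

/-!
Counting minimal vectors, level 1.
-/

set_option autoImplicit false
set_option maxRecDepth 100000

namespace CA.CoT.A7
open CA.Co

theorem cnt1 : cntMV SS (WW (7 * 1)) (Nat.beq 1093253698928) = 3 := by decide +kernel

theorem step1 : Nat.card (St (7 * 1)) ≤ 3 * Nat.card (St (7 * (1 + 1))) :=
  step (by norm_num) (by decide +kernel) cnt1

end CA.CoT.A7
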