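import Cfsg.Agent.Lib.CoT.A9
import Cfsg.Agent.Lib.CoT.A7c0
import Cfsg.Agent.Lib.CoT.A7c1
import Cfsg.Agent.Lib.CoT.A7c2
import Cfsg.Agent.Lib.CoT.A7c3

/-!
The subgroup `7 × A7` of `Co1`.
-/

set_option autoImplicit false

namespace CA.CoT.A7
open Cfsg CA.Gol CA CA.Ex2 CA.Co CA.CoT.A9 Subgroup
open scoped Pointwise Matrix

theorem card_cent_b : Nat.card ↥𝐂[b] ≤ 35280 := by
  have h0 := step0
  have h1 := step1
  have h2 := step2
  have h3 := step3
  norm_num at h0 h1 h2 h3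
  rw [St_top, card_bot] at h3
  rw [St_zero] at h0
  omega

theorem card_cent_bb : Nat.card ↥𝐂[(b : Spor.Co1)] ≤ 17640 := by
  let π : ↥𝐂[b] →* Spor.Co1 := (QuotientGroup.mk' _).comp (Subgroup.subtype _)
  have h1 : 𝐂[(b : Spor.Co1)] ≤ π.range := fun x hx => by
    obtain ⟨g, hg, rfl⟩ := lift_cent (by rw [order_b]; decide) hx
    exact ⟨⟨g, hg⟩, rfl⟩
  have h2 := card_le_of_le' h1
  have h3 : Nat.card π.ker * Nat.card π.range = Nat.card ↥𝐂[b] := by rw [← index_ker, card_mul_index]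
  have h4 : 1 < Nat.card π.ker := (one_lt_card_iff_ne_bot _).2 fun e => by
    have k : (⟨negC, negC_mem_cent b⟩ : ↥𝐂[b]) ∈ π.ker := mk_eq_one_iff.2 (Or.inr rfl)
    rw [e, mem_bot, Subtype.ext_iff] at k
    exact negC_ne_one k
  have h5 := card_cent_b
  nlinarith

/-- the first seven points -/
def e79 : Fin 7 ≃ {x : Fin 9 // x.1 < 7} :=
  ⟨fun x => ⟨⟨x, by omega⟩, x.2⟩, fun x => ⟨x.1, x.2⟩, fun _ => rfl, fun _ => rfl⟩

/-- the embedding of `A7` into `A9` -/
def io : alternatingGroup (Fin 7) →* alternatingGroup (Fin 9) :=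
  ((Equiv.Perm.extendDomainHom e79).comp (Subgroup.subtype _)).codRestrict _ fun x =>
    Equiv.Perm.mem_alternatingGroup.2 ((Equiv.Perm.sign_extendDomain _ _).trans (Equiv.Perm.mem_alternatingGroup.1 x.2))

theorem io_inj : Function.Injective io := fun _ _ e =>
  Subtype.ext (Equiv.Perm.extendDomainHom_injective e79 (congrArg Subtype.val e))

theorem partV : Nat.card (zpowers (b : Spor.Co1)) = 7 ∧ Nonempty (↥(centralizer (zpowers (b : Spor.Co1) : Set Spor.Co1)) ≃*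
    Multiplicative (ZMod 7) × alternatingGroup (Fin 7)) := by
  obtain ⟨Ψ, h1, h2, -⟩ := psi
  have ho : orderOf (b : Spor.Co1) = 7 := order_mk (by norm_num) (by decide) order_b
  have hc : Nat.card (zpowers (b : Spor.Co1)) = 7 := by rw [Nat.card_zpowers, ho]
  refine ⟨hc, ?_⟩
  have key : ∀ {M N T : ℕ} {p : Equiv.Perm (Fin 7)} (_ : p ∈ alternatingGroup (Fin 7)) (h : ckM M N = true),
      (ckC M C3B.c C3B.c && ckC M tc tc && ckA (repM M) 8 C3B.UT C3B.DT T) = true →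
      (∀ j : Fin 9, ckO 8 T (fld (2 ^ 8) C3B.OT j) (fld (2 ^ 8) C3B.OT (p.extendDomain e79 j)) = true) →
      ckE (repM M) (repM Mb) (repM Mb) (repM M) = true →
      p ∈ ((𝐂[(b : Spor.Co1)]).comap (Ψ.comp io)).map (Subgroup.subtype _) := fun {M N T p} hp h a1 a2 a3 => by
    obtain ⟨k1, k2⟩ := good h a1 a2
    refine ⟨⟨p, hp⟩, (?_ : Ψ (io ⟨p, hp⟩) ∈ 𝐂[(b : Spor.Co1)]), rfl⟩
    rw [h2 _ k1 _ k2]
    exact mem_cent1_iff.2 (congrArg QuotientGroup.mk
      (mul_eq_of_rep (rep_coM h) (rep_coM hb) (rep_coM hb) (rep_coM h) a3))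
  have hs : finRotate 7 ∈ alternatingGroup (Fin 7) := Equiv.Perm.mem_alternatingGroup.2 (by rw [sign_finRotate]; rfl)
  have h3 := alternating_le (c := finRotate 7) isCycle_finRotate support_finRotate hs 0
    (key (T := Tc7) hs hc7 (by decide +kernel) (by decide +kernel) (by decide +kernel))
    (key (T := Td7) (Equiv.Perm.mem_alternatingGroup.2 (by simp [Equiv.Perm.mem_alternatingGroup.1 hs])) hd7
      (by decide +kernel) (by decide +kernel) (by decide +kernel))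
  have h4 : ∀ p, Ψ.comp io p ∈ 𝐂[(b : Spor.Co1)] := fun p => by
    obtain ⟨q, hq, e⟩ := h3 p.2
    exact Subtype.ext e ▸ hq
  haveI := Fact.mk (by norm_num : Nat.Prime 7)
  let ε : Multiplicative (ZMod 7) ≃* zpowers (b : Spor.Co1) :=
    mulEquivOfPrimeCardEq (p := 7) (by simp) hc
  let f := (Subgroup.subtype _).comp ε.toMonoidHom
  have h5 : f.range ≤ zpowers (b : Spor.Co1) := by rintro _ ⟨a, rfl⟩; exact (ε a).2
  obtain ⟨E⟩ := prod_equiv f (Ψ.comp io) (fun a p => mem_cent1_iff.1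
    (zpowers_le.2 (mem_cent1_comm.1 (h4 p)) (h5 ⟨a, rfl⟩))) (Subtype.val_injective.comp ε.injective) (h1.comp io_inj)
    (alternatingGroup.center_eq_bot (by simp))
  have h6 : f.range ⊔ (Ψ.comp io).range = 𝐂[(b : Spor.Co1)] := eq_of_le_of_card_le
    (sup_le (h5.trans (zpowers_le.2 (self_mem_cent1 _))) (by rintro _ ⟨p, rfl⟩; exact h4 p))
    (card_cent_bb.trans (by rw [Nat.card_congr E.toEquiv, Nat.card_prod, nat_card_alternatingGroup]; simp [Nat.factorial]))
  exact ⟨(MulEquiv.subgroupCongr ((cent_zpowers _).trans h6.symm)).trans E⟩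

end CA.CoT.A7
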