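import Cfsg.Agent.Lib.CoT.J2a
import Cfsg.Agent.Lib.XS.TwoCls

/-!
Groups of Hall–Janko type: the local subgroups and the centralizer of the second involution.
-/

set_option autoImplicit false

namespace CA.CoT.J
open CA.Fi Subgroup CA CA.Ex2 Cfsg Equiv CA.CoT CA.F24

local notation "gM" => mdlN 128 nM nM_ok
theorem sM : Snd eM gM := snd_eqN (by norm_num) nM_ok
theorem sD : SndN dM gM := sndN_neN nM_ok ps
theorem sK (Ks : List (List ℕ)) : Snd (eqK eM Ks) gM := fun _ _ e => sM _ _ (an_iff.1 e).2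
theorem es_M : ES 4 12 gM := ES.of_esW (by decide) (by decide) sM (an_iff.1 M_lb).1
theorem hz_M : gM 8 ≠ 1 := by simpa [show sg gM 16 = _ from sg_even _ 8] using sD _ _ M_k.2
theorem rep_M : ∀ c, c / 2 ∈ HX → RepC 4 gM (T c) (sg gM c) := (sK _).rep es_M M_rep
theorem lb_M : LB 4 12 gM := sM.lb (by decide) (by decide) (by decide) (by decide) M_lb fun j hj => by
  simpa using (rep_M (2 * j) (by rw [Nat.mul_div_cancel_left j two_pos]; revert j; decide)).norm es_M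
theorem HI_HX : ∀ i ∈ HI 4, i ∈ HX := by decide

theorem cH' {Γ : Type*} [Group Γ] [Finite Γ] {f : ℕ → Γ} (s : Snd eH f) (lb : LB 4 12 f) (hz : f 8 ≠ 1) :
    Nat.card (gen f (HI 4)) ≤ 1920 := by
  have := s.tcq thc1 thc2 thc3
  have := lb.card_B hz
  have := s.tc0 tkc1 tkc2 tkc3
  omega

theorem mo_M : Mo 4 12 60 3 T gM := by
  have k : ∀ p ∈ [([20], 3), ([22], 1), ([24], 5), ([26], 1)], wd gM (pwW p.1 p.2) = 1 :=
    fun p hp => sM.one (allL_iff.1 M_k.1 p hp)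
  simp only [List.forall_mem_cons, wd_pwW, wd_cons, wd_nil, mul_one] at k
  refine ⟨lb_M, hz_M, fun c hc => rep_M c (HI_HX _ hc), ?_, Or.inr M_c1, Or.inl ((pow_one _).symm.trans k.2.1),
    (sK _).tc0 tkc1 tkc2 tkc3, ⟨_, M_lB⟩, ⟨_, M_lH⟩, M_fQ⟩
  simp only [List.forall_mem_cons]
  exact ⟨⟨3, by decide, k.1⟩, ⟨1, by decide, k.2.1⟩, ⟨5, by decide, k.2.2.1⟩, ⟨1, by decide, k.2.2.2.1⟩, by simp⟩

variable {G : Type*} [Group G] {g : ℕ → G}

/-- relations in the local subgroups -/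
structure Rel0 (g : ℕ → G) : Prop where
  y3 : g 21 * g 21 * g 21 = 1
  yz : g 21 * g 8 * (g 21)⁻¹ = g 0
  yx : g 21 * g 0 * (g 21)⁻¹ = g 8 * g 0
  ty : Commute (g 19) (g 21)
  uy : Commute (g 20) (g 21)
  tz : Commute (g 19) (g 8)
  uz : Commute (g 20) (g 8)
  tt : g 19 * g 19 = 1
  uu : g 20 * g 20 = 1
  tu : Commute (g 19) (g 20)
  ux : Commute (g 20) (g 0)
  k3 : g 10 * g 10 * g 10 = 1
  kt : g 10 * g 19 * (g 10)⁻¹ = g 20
  ku : g 10 * g 20 * (g 10)⁻¹ = g 19 * g 20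
  kt' : (g 10)⁻¹ * g 19 * g 10 = g 19 * g 20
  kz : Commute (g 10) (g 8)
  ky : Commute (g 10) (g 21)
  dx : g 22 * g 0 * (g 22)⁻¹ = g 1
  dz : Commute (g 22) (g 8)
  dk : (g 22)⁻¹ * (g 10)⁻¹ * g 22 = g 10
  c1 : g 8 * g 0 * g 1 * (g 0)⁻¹ * (g 8)⁻¹ * (g 1)⁻¹ = g 8
  c2 : g 8 * g 0 * g 8 * g 1 * (g 0)⁻¹ * (g 8)⁻¹ * (g 1)⁻¹ * (g 8)⁻¹ = g 8
  w0 : (g 9)⁻¹ * g 1 * g 9 * g 8 * g 0 = g 8 * g 0 * (g 9)⁻¹ * g 1 * g 9
  h5 : g 12 ^ 5 = 1
  hz : Commute (g 12) (g 8)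
  d1 : g 0 * g 22 * (g 0)⁻¹ * g 0 * g 0 * g 22 * (g 0)⁻¹ = g 1 * g 8
  d2 : (g 1 * g 8 * g 21) ^ 6 = g 0

theorem rel0 (s : Snd e0 g) : Rel0 g := by
  have r := s.eqs (l := [([42, 42, 42], []), ([42, 16, 43], [0]), ([42, 0, 43], [16, 0]), ([38, 42], [42, 38]),
    ([40, 42], [42, 40]), ([38, 16], [16, 38]), ([40, 16], [16, 40]), ([38, 38], []), ([40, 40], []),
    ([38, 40], [40, 38]), ([40, 0], [0, 40]), ([20, 20, 20], []), ([20, 38, 21], [40]), ([20, 40, 21], [38, 40]),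
    ([21, 38, 20], [38, 40]), ([20, 16], [16, 20]), ([20, 42], [42, 20]), ([44, 0, 45], [2]), ([44, 16], [16, 44]),
    ([45, 21, 44], [20]), ([16, 0, 2, 1, 17, 3], [16]), ([16, 0, 16, 2, 1, 17, 3, 17], [16]),
    ([19, 2, 18, 16, 0], [16, 0, 19, 2, 18]), (pwW [24] 5, []), ([24, 16], [16, 24]),
    ([0, 44, 1, 0, 0, 44, 1], [2, 16]), (pwW [2, 16, 42] 6, [0])]) (by decide +kernel)
  simp only [List.forall_mem_cons, wd_pwW, wd_cons, wd_nil, mul_one, sg, Nat.reduceMod, Nat.reduceDiv, ↓reduceIte,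
    Nat.one_ne_zero, ← mul_assoc] at r
  obtain ⟨a1, a2, a3, a4, a5, a6, a7, a8, a9, a10, a11, a12, a13, a14, a15, a16, a17, a18, a19, a20, a21, a22, a23,
    a24, a25, a26, a27, -⟩ := r
  exact ⟨a1, a2, a3, a4, a5, a6, a7, a8, a9, a10, a11, a12, a13, a14, a15, a16, a17, a18, a19, a20, a21, a22, a23,
    a24, a25, a26, a27⟩

theorem i4V {w : List ℕ} (h : w ∈ V4) : I4 (g 8) (g 0) (wd g w) := by
  simp only [V4, List.mem_cons, List.not_mem_nil, or_false] at h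
  rcases h with rfl | rfl | rfl | rfl <;> simp [I4, sg]
theorem i4U {w : List ℕ} (h : w ∈ U4) : I4 (g 19) (g 20) (wd g w) := by
  simp only [U4, List.mem_cons, List.not_mem_nil, or_false] at h
  rcases h with rfl | rfl | rfl | rfl <;> simp [I4, sg]
theorem i4c {a z x v : G} (hv : I4 z x v) (h1 : Commute a z) (h2 : Commute a x) : Commute a v := by
  rcases hv with e | e | e | e <;> rw [e]
  exacts [Commute.one_right _, h1, h2, h1.mul_right h2]
theorem Rel0.sqU (r : Rel0 g) {u : G} (h : I4 (g 19) (g 20) u) : u ^ 2 = 1 := by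
  rcases h with e | e | e | e <;> rw [e]
  exacts [one_pow _, by rw [pow_two, r.tt], by rw [pow_two, r.uu],
    by rw [r.tu.mul_pow, pow_two, pow_two, r.tt, r.uu, one_mul]]

variable [Finite G]

/-- the local data with the derived letters -/
structure JZ (g : ℕ → G) : Prop where
  L : Lc 4 12 T gM g
  cH : Nat.card ↥𝐂[g 8] = 1920
  d : Snd (eqD 19 ds) (pr gM g)

omit [Finite G] in
theorem ext_jz (L : Lc 4 12 T gM g) (cH : Nat.card ↥𝐂[g 8] = 1920) (j : G) :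
    ∃ g' : ℕ → G, (∀ i < 18, g' i = g i) ∧ g' 18 = j ∧ JZ g' := by
  obtain ⟨g', e, d⟩ := exists_ext (Function.update g 18 j) 19 ds M_d.2
  have e' : ∀ i < 18, g' i = g i := fun i hi => by rw [e i (by omega), Function.update_of_ne (by omega)]
  exact ⟨g', e', by rw [e 18 (by omega), Function.update_self], L.congr (by decide) e', e' 8 (by omega) ▸ cH,
    snd_eqD sM M_d.1 d⟩

theorem exists_jz {Q : Subgroup G} {z : G} (h : Typ 4 12 60 Q z) : ∃ g : ℕ → G, g 8 = z ∧ JZ g := by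
  obtain ⟨g, rfl, rfl, L⟩ := mo_M.exists_lc (N := 5) h M_E M_fK (by decide) (by norm_num) (cH' (sK _) lb_M hz_M)
  obtain ⟨g', e, -, d⟩ := ext_jz L h.cH 1
  exact ⟨g', e 8 (by omega), d⟩

namespace JZ
variable (h : JZ g)
include h
omit [Finite G]
theorem agree {g' : ℕ → G} (h' : JZ g') (e : ∀ i < 18, g' i = g i) :
    g' 19 = g 19 ∧ g' 20 = g 20 ∧ g' 21 = g 21 := by
  have k : ∀ g : ℕ → G, JZ g → g 19 = (g 15)⁻¹ * g 2 ∧ g 20 = g 10 * g 19 * (g 10)⁻¹ ∧ g 21 = g 9 * (g 10)⁻¹ :=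
    fun g h => by
      have := h.d.snd.eqs (l := [([38], [31, 4]), ([40], [20, 38, 21]), ([42], [18, 21])]) (by decide +kernel)
      simpa [sg, mul_assoc] using this
  obtain ⟨a1, a2, a3⟩ := k g h
  obtain ⟨b1, b2, b3⟩ := k g' h'
  have : g' 19 = g 19 := by rw [a1, b1, e 15 (by omega), e 2 (by omega)]
  exact ⟨this, by rw [a2, b2, this, e 10 (by omega)], by rw [a3, b3, e 9 (by omega), e 10 (by omega)]⟩
theorem le {I J : List ℕ} (c : memsW (eqD 19 ds) J (ltW I) (dfV 19 ds) = true) :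
    gen (pr gM g) I ≤ gen (pr gM g) J := h.d.le c
theorem leH : gen (pr gM g) HX ≤ gen (pr gM g) (HI 4) :=
  (h.le (J := 19 :: HI 4) (by decide +kernel)).trans (h.le (by decide +kernel))
theorem fL : Fun (gen (pr gM g) LX) :=
  h.L.fL.mono ((h.le (J := 19 :: LI 4) (by decide +kernel)).trans (h.le (by decide +kernel)))
theorem fH : Fun (gen (pr gM g) HX) := h.L.fH.mono h.leH
theorem coH : CoFun (gen (pr gM g) HX) := h.L.cH.mono h.leH
theorem sH : Snd eH (pr gM g) := sM.known (by simpa using h.fH)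
theorem s0 : Snd e0 (pr gM g) := sM.known (by simpa using ⟨h.fH, h.fL⟩)
theorem sN : SndN dH g := sD.known (by simpa using h.coH)
theorem r : Rel0 g := rel0 h.s0.snd
theorem hz : g 8 ≠ 1 := h.L.lq.ez.ne_one
theorem zz : g 8 * g 8 = 1 := h.L.lb.es.zz
theorem t1 : g 19 ≠ 1 := by simpa [sg] using h.sN _ _ M_R0.2.2
theorem eH' : gen g HX = 𝐂[g 8] := le_antisymm (by
  simpa only [map_snd_gen, h.L.eH] using map_mono (f := MonoidHom.snd _ G) h.leH) (h.L.eH ▸ gen_mono g HI_HX)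
theorem cX : Nat.card (gen (pr gM g) HX) ≤ 1920 := by rw [h.coH.card_gen, h.eH', h.cH]
variable [Finite G]

theorem inv {M : Subgroup G} (h1 : 𝐂[g 8] ≤ M) (h2 : g 9 ∈ M) {a : G} (ha : a ∈ M) (aa : a * a = 1) (a1 : a ≠ 1) :
    ∃ m ∈ M, a = m * g 8 * m⁻¹ ∨ a = m * g 19 * m⁻¹ := by
  have s := h.sH.snd
  have es := h.L.lb.es
  obtain ⟨c1, c2⟩ := s.cos es h.hz h.L.rep h.L.eH.le M_cos.1 (by
    have := s.tcq ttc1 ttc2 ttc3
    rwa [es.card_eq h.hz, ← M_cos.2] at this)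
  rw [M_cos.2] at c1
  have l : gen g TI ≤ 𝐂[g 8] := h.eH' ▸ gen_mono g (by decide)
  have q : gen g (qI 4) ≤ gen g TI := gen_mono g (by decide)
  have S : SylowIn 2 (gen g TI) M := ((sylowIn_mk Nat.prime_two l (IsPGroup.of_card (n := 7) c1) fun ⟨k, e⟩ => by
    have := card_mul_relIndex l
    rw [c1, e, h.cH] at this
    omega).of_norm_le_top fun n hn => by
      have c : n * g 8 * n⁻¹ ∈ 𝐂(gen g (qI 4)) := mem_centralizer_iff.2 fun b hb => by
        have := mem_centralizer_singleton_iff.1 (l (conj_inv_mem_of_mem_normalizer hn (q hb)))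
        calc _ = n * (n⁻¹ * b * n * g 8) * n⁻¹ := by group
          _ = _ := by rw [this]; group
      exact mem_centralizer_singleton_iff.2 (mul_inv_eq_iff_eq_mul.1 ((h.L.lq.ez.mem_zp.1
        (h.L.lq.ez.mem_zp_of_cent (h.L.lq.cent_le c) c)).resolve_left (mt conj_eq_one_iff.1 h.hz)))).of_le
    (l.trans h1) le_top
  obtain ⟨n, hn, e1⟩ := S.exists_conj_mem ha (Blk.piElt_two_of_sq aa)
  obtain ⟨k, hk, i, hi, v, hv, e2⟩ := c2 _ e1 (by rw [conj_mul, aa]; simp)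
  have e3 : a = n⁻¹ * k * (wd g (nth [] [[], [38]] i) * nf 4 g v) * (n⁻¹ * k)⁻¹ := by
    calc a = n⁻¹ * (n * a * n⁻¹) * n := by group
      _ = _ := by rw [e2]; group
  have mk := mul_mem (inv_mem hn) (h1 (h.L.eH.le hk))
  generalize n⁻¹ * k = c at mk e3
  have bb : wd g (nth [] [[], [38]] i) * nf 4 g v * (wd g (nth [] [[], [38]] i) * nf 4 g v) = 1 := by
    rwa [e3, conj_mul, conj_eq_one_iff] at aa
  have hX := h.eH'.le.trans h1
  obtain rfl | rfl : i = 0 ∨ i = 1 := by simp at hi; omega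
  · rcases s.cls h.sN es M_cl0 (i := 0) (by decide) hv rfl bb with e | ⟨m, hm, e⟩ | ⟨⟨m, hm, e⟩, -⟩
    · exact absurd (by rw [e3]; exact conj_eq_one_iff.2 e) a1
    · refine ⟨_, mul_mem (mul_mem mk (hX hm)) h2, Or.inl (e3.trans ?_)⟩
      rw [show wd g (nth [] [[], [38]] 0) * nf 4 g v = _ from e, show wd g [0] = g 0 from by simp [sg], ← h.L.lb.yz]
      group
    · exact ⟨_, mul_mem mk (hX hm), Or.inl (e3.trans (by
        rw [show wd g (nth [] [[], [38]] 0) * nf 4 g v = _ from e]; group))⟩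
  · rcases s.cls h.sN es M_cl1 (i := 0) (by decide) hv rfl bb with e | ⟨m, hm, e⟩ | ⟨⟨m, hm, e⟩, -⟩
    · exact absurd (by rw [e3]; exact conj_eq_one_iff.2 e) a1
    · exact ⟨_, mul_mem mk (hX hm), Or.inr (e3.trans (by
        rw [show wd g (nth [] [[], [38]] 1) * nf 4 g v = _ from e, show wd g [38] = g 19 from by simp [sg]]; group))⟩
    · exact ⟨_, mul_mem mk (hX hm), Or.inl (e3.trans (by
        rw [show wd g (nth [] [[], [38]] 1) * nf 4 g v = _ from e]; group))⟩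

theorem cA : (∀ a, Commute a (g 8) → Commute a (g 19) → ∃ v u, I4 (g 8) (g 0) v ∧ I4 (g 19) (g 20) u ∧ a = v * u ∧
    (u = 1 ∨ ∃ n, Commute n (g 8) ∧ n * a * n⁻¹ = g 19)) ∧ Nat.card ↥(𝐂[g 8] ⊓ 𝐂[g 19]) = 16 := by
  obtain ⟨c1, c2⟩ := cenP (by norm_num) (by norm_num) nM_ok tM_eq h.sH h.coH h.cX cA_ok
  have e : wd g [38] = g 19 := by simp [sg]
  rw [h.eH', e] at c1 c2
  refine ⟨fun a a1 a2 => ?_, c2⟩
  obtain ⟨w, hw, rfl⟩ := c1 a (mem_centralizer_singleton_iff.2 a1) a2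
  obtain ⟨v, hv, hw⟩ := List.mem_flatMap.1 hw
  obtain ⟨u, hu, rfl⟩ := List.mem_map.1 hw
  refine ⟨_, _, i4V hv, i4U hu, wd_append _ _ _, ?_⟩
  have := allL_iff.1 (allL_iff.1 M_A v hv) u hu
  by_cases e1 : u = []
  · exact Or.inl (by rw [e1, wd_nil])
  rw [decide_eq_false e1, cnd_false, exL_iff] at this
  obtain ⟨p, -, c⟩ := this
  simp only [an_iff, inI_iff] at c
  refine Or.inr ⟨_, mem_centralizer_singleton_iff.1 (h.eH'.le (wd_mem_gen g c.2.1)), ?_⟩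
  rw [← e, ← h.sH.snd _ _ c.2.2, wd_append _ (_ ++ _), wd_append _ p.2, wd_invW]

variable (nc : ¬ IsConj (g 8) (g 19))
include nc

theorem cV {a : G} (c : IsConj (g 8) a) (h1 : Commute a (g 8)) (h2 : Commute a (g 19)) : I4 (g 8) (g 0) a := by
  obtain ⟨v, u, hv, -, rfl, rfl | ⟨n, -, e⟩⟩ := h.cA.1 a h1 h2
  · simpa using hv
  · exact absurd (c.trans (isConj_iff.2 ⟨n, e⟩)) nc

theorem S1 : A5S 𝐂[g 19] (g 8) (g 0) (g 21) := by
  have r := h.r
  refine ⟨mem_centralizer_singleton_iff.2 r.tz.symm, mem_centralizer_singleton_iff.2 r.ty.symm, h.zz, h.hz, r.y3,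
    r.yz, r.yx, fun c hc e => h.cV nc (isConj_iff.2 ⟨c, rfl⟩) e ?_, fun a ha e => ?_⟩
  · have : Commute c (g 19) := mem_centralizer_singleton_iff.1 hc
    exact (this.mul_left r.tz.symm).mul_left this.inv_left
  · obtain ⟨v, u, hv, hu, rfl, -⟩ := h.cA.1 a e (mem_centralizer_singleton_iff.1 ha)
    exact ⟨v, u, hv, rfl, (i4c hu r.ty.symm r.uy.symm).symm, (i4c hu r.tz.symm r.uz.symm).symm,
      fun _ _ => r.sqU hu ▸ Commute.one_left _, fun _ => r.sqU hu⟩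

theorem not_le : ¬ 𝐂[g 19] ≤ (h.S1 nc).N := fun l => by
  have S := h.S1 nc
  have r := h.r
  haveI := Fact.mk Nat.prime_two
  have key : ∀ w, IsConj (g 8) w → ∃ v ∈ S.V, v ≠ 1 ∧ Commute w v := fun w hw => by
    have ww : w * w = 1 ∧ w ≠ 1 := by
      obtain ⟨c, rfl⟩ := isConj_iff.1 hw
      exact ⟨by rw [conj_mul, h.zz]; simp, mt conj_eq_one_iff.1 h.hz⟩
    obtain ⟨i, -, oi, c1, c2⟩ := XS.exists_invol (a := g 19) (b := w) (orderOf_eq_prime (by rw [pow_two, r.tt]) h.t1)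
      (orderOf_eq_prime (by rw [pow_two, ww.1]) ww.2) fun c => nc (hw.trans c.symm)
    obtain ⟨v, u, hv, -, e, rfl | ⟨n, n1, e1⟩⟩ := h.cA.1 i (S.inv_comm (l (mem_centralizer_singleton_iff.2 c1))
      (by rw [← pow_two, ← oi, pow_orderOf_eq_one])) c1
    · rw [mul_one] at e
      exact ⟨i, e ▸ hv, fun e => by simp [e] at oi, c2.symm⟩
    · have c3 : Commute (n * w * n⁻¹) (g 19) := e1 ▸ (show Commute w i from c2.symm).conj n
      have := (S.inv_comm (l (mem_centralizer_singleton_iff.2 c3)) (by rw [conj_mul, ww.1]; simp)).conj n⁻¹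
      rw [n1.inv_left.eq] at this
      exact ⟨_, S.zV, h.hz, by simpa [mul_assoc] using this⟩
  have n0 : ¬ Commute ((g 9)⁻¹ * g 1 * g 9) (g 8) := fun c => by
    have := c.conj (g 9)
    rw [h.L.lb.yz, show g 9 * ((g 9)⁻¹ * g 1 * g 9) * (g 9)⁻¹ = g 1 by group] at this
    have e := h.L.lb.ld.sx
    rw [this.eq, mul_inv_cancel_right] at e
    exact h.hz (by simpa using e)
  have w0 : Commute ((g 9)⁻¹ * g 1 * g 9) (g 8 * g 0) := by simpa only [Commute, SemiconjBy, ← mul_assoc] using r.w0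
  obtain ⟨v, hv, v1, c⟩ := key ((g 22)⁻¹ * ((g 9)⁻¹ * g 1 * g 9) * g 22) (isConj_iff.2
    ⟨(g 22)⁻¹ * (g 9)⁻¹ * g 22 * g 9, by rw [← r.dx, ← h.L.lb.yz]; group⟩)
  have c1 := c.conj (g 22)
  rw [show g 22 * ((g 22)⁻¹ * ((g 9)⁻¹ * g 1 * g 9) * g 22) * (g 22)⁻¹ = (g 9)⁻¹ * g 1 * g 9 by group] at c1
  have k := ((w0.mul_right c1).mul_right w0.inv_right).mul_right c1.inv_right
  rcases hv with e | e | e | e <;> rw [e] at c1 k
  · exact v1 e
  · rw [r.dz.eq, mul_inv_cancel_right] at c1; exact n0 c1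
  · rw [r.dx] at k; exact n0 (by rw [← r.c1]; simpa only [mul_inv_rev, ← mul_assoc] using k)
  · rw [← conj_mul (a := g 8), r.dx, r.dz.eq, mul_inv_cancel_right] at k
    exact n0 (by rw [← r.c2]; simpa only [mul_inv_rev, ← mul_assoc] using k)
end JZ

/-- with the generator of the centralizer of the second involution -/
structure JB (g : ℕ → G) : Prop extends JZ g where
  nc : ¬ IsConj (g 8) (g 19)
  bb : g 18 * g 18 = 1
  by' : g 18 * g 21 * (g 18)⁻¹ = (g 21)⁻¹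
  bx : (g 18 * g 0) ^ 3 = 1
  bt : Commute (g 18) (g 19)
  bu : Commute (g 18) (g 20)
  bk : Commute (g 18) (g 10)
  top : ∀ S : Subgroup G, 𝐂[g 19] ⊓ 𝐂[g 8] ≤ S → g 21 ∈ S → g 18 ∈ S → 𝐂[g 19] ≤ S

theorem JZ.exists_jb (h : JZ g) (nc : ¬ IsConj (g 8) (g 19)) : ∃ g' : ℕ → G, g' 8 = g 8 ∧ JB g' := by
  have S := h.S1 nc
  have r := h.r
  obtain ⟨j, hj, e1, e2, c1, c2⟩ := S.main.resolve_left (h.not_le nc)
  have ju := c2 (g 20) (fun a ha => mul_mem (mul_mem (mem_centralizer_singleton_iff.2 r.tu.symm) ha)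
    (inv_mem (mem_centralizer_singleton_iff.2 r.tu.symm))) r.uz r.uy
  have l := c1 𝐂[g 20] (fun a ha => by
    obtain ⟨v, u, hv, hu, rfl, -⟩ := h.cA.1 a (mem_centralizer_singleton_iff.1 ha.2)
      (mem_centralizer_singleton_iff.1 ha.1)
    exact mem_centralizer_singleton_iff.2 ((i4c hv r.uz r.ux).mul_right (i4c hu r.tu.symm (Commute.refl _))).symm)
    (mem_centralizer_singleton_iff.2 r.uy.symm) (mem_centralizer_singleton_iff.2 ju.symm)
  have jk := c2 (g 10) (fun a ha => by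
    have := (show Commute a (g 19) from mem_centralizer_singleton_iff.1 ha).mul_right
      (mem_centralizer_singleton_iff.1 (l ha))
    rw [← r.kt'] at this
    exact mem_centralizer_singleton_iff.2 (by simpa [mul_assoc] using (this.conj (g 10)).eq)) r.kz r.ky
  obtain ⟨g', e, e18, h'⟩ := ext_jz h.L h.cH (g 21 * j * (g 21)⁻¹)
  obtain ⟨e19, e20, e21⟩ := h.agree h' e
  have k : ∀ c, Commute c (g 21) → Commute c j → Commute (g 21 * j * (g 21)⁻¹) c := fun c c1 c2 =>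
    ((c1.mul_right c2).mul_right c1.inv_right).symm
  refine ⟨g', e 8 (by omega), h', ?_, ?_, ?_, ?_, ?_, ?_, ?_, ?_⟩ <;>
    simp only [e18, e19, e20, e21, e 8 (by omega), e 0 (by omega), e 10 (by omega)]
  · exact nc
  · rw [conj_mul, (S.Dp hj).2.1]; simp
  · calc _ = g 21 * (j * g 21 * j⁻¹) * (g 21)⁻¹ := by group
      _ = _ := by rw [e1]; group
  · rw [← r.yz, conj_mul, conj_pow, e2]; simp
  · exact k _ r.ty (mem_centralizer_singleton_iff.1 (S.Dp hj).1).symm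
  · exact k _ r.uy ju
  · exact k _ r.ky jk
  · exact fun S h1 h2 h3 => c1 S h1 h2 (by simpa [mul_assoc] using mul_mem (mul_mem (inv_mem h2) h3) h2)

end CA.CoT.J
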