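import Cfsg.Agent.Lib.CoT.Quo2
import Cfsg.Agent.Lib.CoT.A5L

/-!
Centralizers in known groups; the relations of the subgroup `3.A₆.2` of the Hall–Janko group.
-/

set_option autoImplicit false

namespace CA.CoT
open CA.Fi Subgroup CA CA.Ex2 Cfsg Equiv

section
variable {Γ : Type*} [Group Γ] {f : ℕ → Γ} {eq eq' : EqT}

/-- one of two tests -/
noncomputable def eqO (eq eq' : EqT) : EqT := fun u w => cnd (eq u w) true (eq' u w)
theorem Snd.or (h : Snd eq f) (h' : Snd eq' f) : Snd (eqO eq eq') f := fun u w e => by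
  unfold eqO at e
  cases e1 : eq u w <;> rw [e1] at e
  exacts [h' _ _ e, h _ _ e1]

theorem Snd.eqs (h : Snd eq f) {l : List (List ℕ × List ℕ)} (c : allL (fun p => eq p.1 p.2) l = true) :
    ∀ p ∈ l, wd f p.1 = wd f p.2 := fun p hp => h _ _ (allL_iff.1 c p hp)

/-- the relations on four involutions -/
structure K4Rel (a b c d : Γ) : Prop where
  aa : a * a = 1
  bb : b * b = 1
  cc : c * c = 1
  dd : d * d = 1
  ab : (a * b) ^ 5 = 1
  ac : (a * c) ^ 2 = 1
  ad : (a * d) ^ 2 = 1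
  bc : (b * c) ^ 3 = 1
  bd : (b * d) ^ 2 = 1
  cd : (c * d) ^ 8 = 1
  x1 : a = (c * d) ^ 4

theorem K4Rel.prod {Γ' : Type*} [Group Γ'] {a b c d : Γ} {a' b' c' d' : Γ'} (h : K4Rel a b c d)
    (h' : K4Rel a' b' c' d') : K4Rel (a, a') (b, b') (c, c') (d, d') :=
  ⟨Prod.ext h.aa h'.aa, Prod.ext h.bb h'.bb, Prod.ext h.cc h'.cc, Prod.ext h.dd h'.dd, Prod.ext h.ab h'.ab,
    Prod.ext h.ac h'.ac, Prod.ext h.ad h'.ad, Prod.ext h.bc h'.bc, Prod.ext h.bd h'.bd, Prod.ext h.cd h'.cd,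
    Prod.ext h.x1 h'.x1⟩

open TC in
theorem K4Rel.card_le {a b c d : ℕ} (h : K4Rel (f a) (f b) (f c) (f d)) : Nat.card (gen f [a, b, c, d]) ≤ 2160 := by
  let R := [pw [0, 1] 5, pw [0, 2] 2, pw [0, 3] 2, pw [1, 2] 3, pw [1, 3] 2, pw [2, 3] 8, (0 :: pw [3, 2] 4).reverse]
  have h1 : Fam (fun i => [f a, f b, f c, f d].getD i 1) 4 R := by
    refine ⟨fun i => ?_, rfl, ?_⟩
    · match i with
      | 0 => exact h.aa
      | 1 => exact h.bb
      | 2 => exact h.cc
      | 3 => exact h.dd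
      | _ + 4 => exact mul_one _
    have e1 : ev (fun i => [f a, f b, f c, f d].getD i 1) (0 :: pw [3, 2] 4).reverse = 1 := by
      rw [show (0 :: pw [3, 2] 4).reverse = pw [2, 3] 4 ++ [0] from rfl, ev_append, ev_pw]
      simpa [← h.x1] using h.aa
    simp only [R, List.forall_mem_cons, ev_pw, ev_cons, ev_nil, mul_one]
    exact ⟨h.ab, h.ac, h.ad, h.bc, h.bd, h.cd, e1, fun _ h => absurd h List.not_mem_nil⟩
  have h2 := h1.mono (R ++ R.map List.reverse) (by decide +kernel)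
  have := h2.step [0, 1, 2, 3] [0, 1] suzd_card (by decide +kernel) <|
    h2.step [0, 1] [0] suze_card (by decide +kernel) <| h2.step [0] [] suzf_card (by decide +kernel) <| KS_nil _
  have e : KS (fun i => [f a, f b, f c, f d].getD i 1) [0, 1, 2, 3] = gen f [a, b, c, d] := by
    unfold KS gen; congr 1; ext x; simp [eq_comm]
  exact e ▸ this.2

theorem zp_eq_of_prime [Finite Γ] {p : ℕ} (hp : p.Prime) {u c : Γ} (ou : orderOf u = p) (hc : c ∈ zpowers u)
    (c1 : c ≠ 1) : u ∈ zpowers c := by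
  have l := zpowers_le.2 hc
  have d := card_dvd_of_le l
  rw [Nat.card_zpowers, Nat.card_zpowers, ou, Nat.dvd_prime hp] at d
  exact (eq_of_le_of_card_le l (by
    rw [Nat.card_zpowers, Nat.card_zpowers, ou]
    exact (d.resolve_left fun e => c1 (orderOf_eq_one_iff.1 e)).ge)).ge (mem_zpowers u)

theorem conj_into_zpowers [Finite Γ] {p m : ℕ} (hp : p.Prime) (hm : m.Coprime p) {u a : Γ} (ou : orderOf u = p)
    (oa : orderOf a = p) (h : ∀ c, Commute c u → c ^ m ∈ zpowers u) : ∃ g, g * a * g⁻¹ ∈ zpowers u := by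
  haveI := Fact.mk hp
  obtain ⟨P, hP, h1⟩ := exists_sylowIn_ge' hp (Q := zpowers u)
    (IsPGroup.of_card (n := 1) (by rw [Nat.card_zpowers, ou, pow_one])) (le_top (a := zpowers u))
  obtain ⟨g, -, hg⟩ := hP.exists_conj_mem (mem_top a) ((piElt_of_orderOf_prime hp oa).2 rfl)
  have key : ∀ c ∈ P, Commute c u → c ∈ zpowers u := fun c hc e => by
    obtain ⟨k, hk⟩ := IsPGroup.iff_orderOf.1 (hP.isPGroup hp) ⟨c, hc⟩
    rw [orderOf_mk] at hk
    exact zpowers_le.2 (h c e) (mem_zpowers_pow_iff.2 (hk ▸ hm.pow_right k))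
  haveI : Nontrivial P := ⟨⟨u, h1 (mem_zpowers u)⟩, 1, fun e => hp.one_lt.ne' (by
    rw [← ou, orderOf_eq_one_iff]; exact congrArg Subtype.val e)⟩
  obtain ⟨⟨c, hc⟩, c1⟩ := @exists_ne _ (hP.isPGroup hp).center_nontrivial 1
  have k : ∀ b ∈ P, Commute b c.1 := fun b hb => congrArg Subtype.val (mem_center_iff.1 hc ⟨b, hb⟩)
  obtain ⟨n, hn⟩ := mem_zpowers_iff.1 (zp_eq_of_prime hp ou (key _ c.2 (k u (h1 (mem_zpowers u))).symm)
    fun e => c1 (Subtype.ext (Subtype.ext e)))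
  exact ⟨g, key _ hg (hn ▸ (k _ hg).zpow_right n)⟩
end

/-- the words `ws` are the elements of the centralizer of `u` -/
noncomputable def cenL (K B : ℕ) (nets : List (List (ℕ × ℕ))) (tl : List (ℕ × ℕ)) (ps : List ℕ) (eq : EqT)
    (I u : List ℕ) (ws : List (List ℕ)) (o K' P a : ℕ) (l : List ℕ) : Bool :=
  an ((tabB K B).cjLF ((tabB K B).lk tl) K' P a ps I u l)
    (an (allL (fun w => an (inI I w) (eq (w ++ u) (u ++ w))) ws)
    (an (Bk.mapF (fpN nets ps) ws fun l => decide l.Nodup) (an (an (Nat.blt 0 a) (inI I u))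
      (Nat.ble o (a * ws.length)))))

section
variable {G : Type*} [Group G] [Finite G] {K B : ℕ} (hK : 2 ≤ K) (hB : B ≤ 2 ^ K)
  {nets : List (List (ℕ × ℕ))} (hn : netsOK B nets = true) {tl : List (ℕ × ℕ)} (ht : tl = nets.map (tabN K B))
  {g : ℕ → G}
include hK hB ht

theorem cls_pr {K' P a : ℕ} {ps I u l : List ℕ} (c : (tabB K B).cjLF ((tabB K B).lk tl) K' P a ps I u l = true)
    {Y : Subgroup (PB B × G)} (hY : gen (pr (mdlN B nets hn) g) I ≤ Y) :
    a * Nat.card ↥(Y ⊓ 𝐂[wd (pr (mdlN B nets hn) g) u]) ≤ Nat.card Y := by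
  letI : MulAction (PB B × G) ℕ := MulAction.compHom ℕ (MonoidHom.fst (PB B) G)
  exact Bk.cjLF_sound (tabB_ok hB) (vec := id) (Set.injOn_id _) (g := pr (mdlN B nets hn) g)
    (fun c _ => (mdlN_rep hK hB hn ht c).map fun x => by rw [sg_prod]; rfl) c hY

theorem cenP {eq : EqT} (s : Snd eq (pr (mdlN B nets hn) g)) {ps I u l : List ℕ} {ws : List (List ℕ)}
    {o K' P a : ℕ} (co : CoFun (gen (pr (mdlN B nets hn) g) I)) (ho : Nat.card (gen (pr (mdlN B nets hn) g) I) ≤ o)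
    (c : cenL K B nets tl ps eq I u ws o K' P a l = true) :
    (∀ c ∈ gen g I, Commute c (wd g u) → ∃ w ∈ ws, c = wd g w) ∧
      Nat.card ↥(gen g I ⊓ 𝐂[wd g u]) = ws.length := by
  classical
  obtain ⟨c1, c⟩ := an_iff.1 c
  obtain ⟨c2, c⟩ := an_iff.1 c
  obtain ⟨c3, c⟩ := an_iff.1 c
  simp only [an_iff, allL_iff, inI_iff, ble_iff, Nat.blt_eq] at c c2
  have b1 := Nat.le_of_mul_le_mul_left ((cls_pr hK hB hn ht c1 le_rfl).trans (ho.trans c.2)) c.1.1
  have nd := nodup_of_fp hn c3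
  have m : ∀ w ∈ ws, wd (pr (mdlN B nets hn) g) w ∈ gen (pr (mdlN B nets hn) g) I ⊓
      𝐂[wd (pr (mdlN B nets hn) g) u] := fun w hw => ⟨wd_mem_gen _ (c2 w hw).1, mem_centralizer_singleton_iff.2 (by
    rw [← wd_append, ← wd_append]; exact s _ _ (c2 w hw).2)⟩
  have k : ∀ c ∈ gen g I, Commute c (wd g u) → ∃ w ∈ ws, c = wd g w := fun b hb e => by
    obtain ⟨a, ha⟩ := exists_fst (g0 := mdlN B nets hn) hb
    have hu := wd_mem_gen (pr (mdlN B nets hn) g) c.1.2
    have := exhaust (l := ws.map (wd (pr (mdlN B nets hn) g))) (fun a ha => by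
        obtain ⟨w, hw, rfl⟩ := List.mem_map.1 ha
        exact m w hw)
      (List.Nodup.of_map Prod.fst (by rw [List.map_map]; convert nd using 2; ext1 w; simp [wd_prod]))
      (by rwa [List.length_map]) (s := (a, b)) (mem_inf.2 ⟨ha, mem_centralizer_singleton_iff.2
        (co.eq (mul_mem ha hu) (mul_mem hu ha) (by rw [wd_prod]; exact e))⟩)
    obtain ⟨w, hw, e⟩ := List.mem_map.1 this
    rw [wd_prod] at e
    exact ⟨w, hw, (congrArg Prod.snd e).symm⟩
  refine ⟨k, ?_⟩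
  have nd' := co.nodup (allL_iff.2 fun w hw => inI_iff.2 (c2 w hw).1) nd
  rw [← List.length_map (wd g), ← List.toFinset_card_of_nodup nd', ← Set.ncard_coe_finset]
  refine congrArg Set.ncard (Set.ext fun b => ⟨fun hb => ?_, fun hb => ?_⟩ :
    ((gen g I ⊓ 𝐂[wd g u] : Subgroup G) : Set G) = _)
  · obtain ⟨w, hw, rfl⟩ := k b hb.1 (mem_centralizer_singleton_iff.1 hb.2)
    simpa using ⟨w, hw, rfl⟩
  · obtain ⟨w, hw, rfl⟩ : ∃ w ∈ ws, wd g w = b := by simpa using hb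
    have := m w hw
    refine ⟨wd_mem_gen _ (c2 w hw).1, mem_centralizer_singleton_iff.2 ?_⟩
    have e := mem_centralizer_singleton_iff.1 this.2
    rw [wd_prod, wd_prod] at e
    exact congrArg Prod.snd e
end

end CA.CoT
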