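import Cfsg.Agent.Lib.CoT.U43

/-!
Centralizers of elements of order three modulo the element; normal subgroups of models.
-/

set_option autoImplicit false

namespace CA.CoT
open CA.Fi Subgroup CA CA.Ex2 Cfsg Equiv CA.F24
open scoped commutatorElement

section
variable {Γ : Type*} [Group Γ] {n ε : ℕ}

theorem LB.swap {g g' : ℕ → Γ} (h : LB n ε g) (hn : n ≤ 6) (e : ∀ i < 18, i ∉ [10, 11, 12, 13] → g' i = g i)
    (k : ∀ j ∈ [10, 11], g' j ∈ gen g [10, 11]) : LB n ε g' := by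
  have e0 := e 0 (by omega) (by simp)
  have e1 := e 1 (by omega) (by simp)
  have e8 := e 8 (by omega) (by simp)
  have e9 := e 9 (by omega) (by simp)
  have ei : ∀ i < n, g' i = g i := fun i hi => e i (by omega) (by simp; omega)
  have eq : ∀ i ∈ qI n, g' i = g i := fun i hi => by
    rcases mem_qI.1 hi with rfl | hi
    exacts [e8, ei i hi]
  refine ⟨⟨⟨h.es.congr eq, h.n2, h.e01, e9 ▸ h.y3, ?_, ?_, ?_, fun i hi h2 => ?_, fun i hi h2 j hj h3 => ?_⟩,
    fun j hj => ?_, fun j hj i hi => ?_⟩, fun i hi h2 => ?_⟩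
  · rw [e9, e8, e0]; exact h.yz
  · rw [e9, e8, e0]; exact h.yx
  · rw [e9, e1]; exact h.sy
  · rw [e9, ei i hi]; exact h.ey i hi h2
  · rw [e9, ei i hi, ei j hj]; exact h.eb i hi h2 j hj h3
  · rw [gen_congr eq]; exact h.lk.K_normQ (k j hj)
  · rw [e i (by simp at hi; omega) (by simp at hi ⊢; omega)]; exact h.lk.K_cent (k j hj) hi
  · rw [e9, ei i hi, e (12 + i) (by omega) (by simp; omega)]; exact h.bb i hi h2

instance instNormalZp (y : Γ) : ((zpowers y).subgroupOf 𝐂[y]).Normal := ⟨fun a ha b => by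
  obtain ⟨k, hk⟩ := mem_zpowers_iff.1 (mem_subgroupOf.1 ha)
  have : Commute b.1 a.1 := hk ▸ (show Commute b.1 y from mem_centralizer_singleton_iff.1 b.2).zpow_right k
  rw [mem_subgroupOf, coe_mul, coe_mul, this.eq]; simpa using mem_subgroupOf.1 ha⟩

/-- the centralizer modulo the element -/
abbrev CQ (y : Γ) := ↥𝐂[y] ⧸ (zpowers y).subgroupOf 𝐂[y]
/-- the projection -/
abbrev pq (y : Γ) : ↥𝐂[y] →* CQ y := QuotientGroup.mk' _
/-- the preimage -/
def up {y : Γ} (B : Subgroup (CQ y)) : Subgroup Γ := (B.comap (pq y)).map (𝐂[y]).subtype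

variable {y : Γ}
theorem pq_eq_one {a : 𝐂[y]} : pq y a = 1 ↔ a.1 ∈ zpowers y := (QuotientGroup.eq_one_iff a).trans mem_subgroupOf
theorem mem_up {B : Subgroup (CQ y)} {a : 𝐂[y]} : a.1 ∈ up B ↔ pq y a ∈ B :=
  ⟨fun ⟨_, hb, e⟩ => Subtype.ext e ▸ hb, fun h => ⟨a, h, rfl⟩⟩
theorem up_le (B : Subgroup (CQ y)) : up B ≤ 𝐂[y] := map_subtype_le _
theorem zp_le_up (B : Subgroup (CQ y)) : zpowers y ≤ up B := zpowers_le.2
  ((mem_up (a := ⟨y, mem_centralizer_singleton_iff.2 rfl⟩)).2 (by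
    rw [pq_eq_one.2 (mem_zpowers y)]; exact one_mem B))
theorem card_up (B : Subgroup (CQ y)) : Nat.card (up B) = Nat.card (zpowers y) * Nat.card B := by
  rw [up, card_map_of_injective (subtype_injective _), ← Nat.card_congr (subgroupOfEquivOfLe
    (zpowers_le.2 (mem_centralizer_singleton_iff.2 rfl : y ∈ 𝐂[y]))).toEquiv]
  exact QuotientGroup.card_preimage_mk _ (B : Set (CQ y))
theorem le_of_up {A B : Subgroup (CQ y)} (h : up A ≤ up B) : A ≤ B := fun a ha => by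
  obtain ⟨a, rfl⟩ := QuotientGroup.mk'_surjective _ a
  exact mem_up.1 (h (mem_up.2 ha))

theorem up_cent (y3 : y ^ 3 = 1) {z : 𝐂[y]} (zz : z.1 * z.1 = 1) : up 𝐂[pq y z] = 𝐂[y] ⊓ 𝐂[z.1] := by
  refine le_antisymm (fun a ha => ⟨up_le _ ha, ?_⟩) fun a ha => (mem_up (a := ⟨a, ha.1⟩)).2
    (mem_centralizer_singleton_iff.2 (by
      rw [← map_mul, ← map_mul]; congr 1; exact Subtype.ext (mem_centralizer_singleton_iff.1 ha.2)))
  have h1 := mem_centralizer_singleton_iff.1 ((mem_up (a := ⟨a, up_le _ ha⟩)).1 ha)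
  rw [← mul_inv_eq_one, ← map_mul, ← map_mul, ← map_inv, ← map_mul, pq_eq_one] at h1
  have h2 : a * z * (z * a)⁻¹ ∈ zpowers y := h1
  have c : Commute z.1 y := mem_centralizer_singleton_iff.1 z.2
  generalize z.1 = t at zz h2 c
  obtain ⟨k, hk⟩ := mem_zpowers_iff.1 h2
  have e1 : a * t * a⁻¹ = y ^ k * t := by rw [hk]; group
  have e2 : y ^ k * y ^ k = 1 := by
    have : a * t * a⁻¹ * (a * t * a⁻¹) = 1 := by rw [conj_mul, zz]; simp
    rwa [e1, mul_assoc, ← mul_assoc t, (c.zpow_right k).eq, mul_assoc, zz, mul_one] at this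
  have e3 : (y ^ k) ^ 3 = 1 := by rw [← zpow_natCast, ← zpow_mul, mul_comm, zpow_mul, zpow_natCast, y3, one_zpow]
  rw [pow_succ, pow_two, e2, one_mul] at e3
  rw [e3, mul_inv_rev, eq_comm, ← mul_assoc, mul_inv_eq_one, mul_inv_eq_iff_eq_mul] at hk
  exact mem_centralizer_singleton_iff.2 hk

variable {f : ℕ → Γ} {eq : EqT}
/-- the letters in the quotient -/
def qf (hf : ∀ i, f i ∈ 𝐂[f 16]) (i : ℕ) : CQ (f 16) := pq _ ⟨f i, hf i⟩

theorem wd_qf (hf : ∀ i, f i ∈ 𝐂[f 16]) (w : List ℕ) :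
    wd (qf hf) w = pq _ ⟨wd f w, wd_mem f fun _ _ => hf _⟩ := by
  have e1 := map_wd (fun i => (⟨f i, hf i⟩ : 𝐂[f 16])) (𝐂[f 16]).subtype w
  have e2 := map_wd (fun i => (⟨f i, hf i⟩ : 𝐂[f 16])) (pq _) w
  exact e2.symm.trans (congrArg _ (Subtype.ext e1))

theorem up_gen (hf : ∀ i, f i ∈ 𝐂[f 16]) (I : List ℕ) : up (gen (qf hf) I) = gen f (16 :: I) := by
  refine le_antisymm ?_ ((gen_le f).2 fun i hi => ?_)
  · rintro _ ⟨a, ha, rfl⟩
    have e : gen (qf hf) I = (gen (fun i => (⟨f i, hf i⟩ : 𝐂[f 16])) I).map (pq _) := (map_gen _ _ _).symm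
    have ha' : pq _ a ∈ gen (qf hf) I := ha
    obtain ⟨b, hb, e1⟩ := e ▸ ha'
    have h1 : b.1 ∈ gen f I := by
      have := mem_map_of_mem (𝐂[f 16]).subtype hb
      rwa [map_gen] at this
    rw [← mul_inv_eq_one, ← map_inv, ← map_mul, pq_eq_one] at e1
    have := mul_mem (inv_mem (zpowers_le.2 (mem_gen f (List.mem_cons_self : 16 ∈ 16 :: I)) e1))
      (gen_mono f (fun _ => List.mem_cons_of_mem _) h1)
    simpa using this
  · rcases List.mem_cons.1 hi with rfl | hi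
    · exact zp_le_up _ (mem_zpowers _)
    · exact (mem_up (a := ⟨f i, hf i⟩)).2 (mem_gen (qf hf) hi)

/-- equality modulo the letter `16` -/
noncomputable def eqY (eq : EqT) : EqT := fun u w =>
  cnd (eq u w) true (cnd (eq u (w ++ [32])) true (eq u (w ++ [33])))

theorem Snd.modY (h : Snd eq f) {u w : List ℕ} (e : eqY eq u w = true) :
    ∃ c ∈ zpowers (f 16), wd f u = wd f w * c := by
  unfold eqY at e
  cases e1 : eq u w <;> rw [e1] at e
  swap
  · exact ⟨1, one_mem _, by rw [h _ _ e1, mul_one]⟩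
  cases e2 : eq u (w ++ [32]) <;> rw [e2] at e
  · exact ⟨_, inv_mem (mem_zpowers _), by rw [h _ _ e, wd_append, wd_cons, wd_nil, mul_one, ← sg_odd f 16]⟩
  · exact ⟨_, mem_zpowers _, by rw [h _ _ e2, wd_append, wd_cons, wd_nil, mul_one, ← sg_even f 16]⟩

theorem Snd.qf (h : Snd eq f) (hf : ∀ i, f i ∈ 𝐂[f 16]) : Snd (eqY eq) (qf hf) := fun u w e => by
  obtain ⟨c, hc, e⟩ := h.modY e
  rw [wd_qf, wd_qf, eq_comm, ← inv_mul_eq_one, ← map_inv, ← map_mul, pq_eq_one]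
  simpa [e] using hc

theorem Snd.centY {σ : List (List ℕ)} (h : Snd eq fun i => wd f (nth [] σ i))
    (c : allN (fun i => eq [2 * i, 32] [32, 2 * i]) σ.length = true) (i : ℕ) :
    wd f (nth [] σ i) ∈ 𝐂[wd f (nth [] σ 16)] := by
  by_cases hi : i < σ.length
  · have := h _ _ (allN_iff.1 c i hi)
    simp only [wd_cons, wd_nil, mul_one, sg_even, show 32 = 2 * 16 from rfl] at this
    exact mem_centralizer_singleton_iff.2 this
  · rw [nth_eq _ _ i, List.getD_eq_default _ _ (by omega), wd_nil]; exact one_mem _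

theorem comm_triv {g q z c : Γ} (y3 : y ^ 3 = 1) (hg : g ∈ 𝐂[y]) (hq : q ∈ 𝐂[y]) (hz : z ∈ 𝐂[y])
    (zq : z * q = q * z) (hc : c ∈ zpowers y) (e : g * z * g⁻¹ * q * (g * z * g⁻¹)⁻¹ = q⁻¹ * c)
    (ht : g * q * g⁻¹ * q * (q * (g * q * g⁻¹))⁻¹ ∈ zpowers y) : g * q * g⁻¹ * q * (q * (g * q * g⁻¹))⁻¹ = 1 := by
  have k : ∀ a ∈ 𝐂[y], ∀ c ∈ zpowers y, a * c = c * a := fun a ha c hc => by
    obtain ⟨k, rfl⟩ := mem_zpowers_iff.1 hc
    exact ((show Commute a y from mem_centralizer_singleton_iff.1 ha).zpow_right k).eq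
  have ha := mul_mem (mul_mem hg hq) (inv_mem hg)
  have hv := mul_mem (mul_mem hg hz) (inv_mem hg)
  have va : g * z * g⁻¹ * (g * q * g⁻¹) * (g * z * g⁻¹)⁻¹ = g * q * g⁻¹ := by
    rw [conj_mul, zq]; group
  generalize g * q * g⁻¹ = a at ha va ht ⊢
  generalize g * z * g⁻¹ = v at hv va e
  have e1 : v * (a * q * (q * a)⁻¹) * v⁻¹ = q⁻¹ * (a * q * (q * a)⁻¹)⁻¹ * q := by
    calc _ = (v * a * v⁻¹) * (v * q * v⁻¹) * ((v * q * v⁻¹) * (v * a * v⁻¹))⁻¹ := by group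
      _ = a * q⁻¹ * (c * a⁻¹) * c⁻¹ * q := by rw [va, e]; group
      _ = _ := by rw [← k _ (inv_mem ha) c hc]; group
  have t3 : (a * q * (q * a)⁻¹) ^ 3 = 1 := by
    obtain ⟨j, hj⟩ := mem_zpowers_iff.1 ht
    rw [← hj, ← zpow_natCast, ← zpow_mul, mul_comm, zpow_mul, zpow_natCast, y3, one_zpow]
  rw [k v hv _ ht, mul_inv_cancel_right, k _ (inv_mem hq) _ (inv_mem ht), inv_mul_cancel_right] at e1
  rwa [pow_succ, pow_two, mul_eq_one_iff_eq_inv.2 e1, one_mul] at t3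

/-- the properties of the centralizer of `y` -/
def PY (y : Γ) : Prop := orderOf y = 3 ∧ (∃ π : 𝐂[y] →* U43, Function.Surjective π ∧ ∀ a, π a = 1 ↔ a.1 ∈ zpowers y) ∧
  (∃ a ∈ 𝐂[y], ∃ b ∈ 𝐂[y], zpowers y ≤ zpowers ⁅a, b⁆) ∧ ∃ c, c * y * c⁻¹ = y⁻¹

theorem PY.conj (h : PY y) (k : Γ) : PY (k * y * k⁻¹) := by
  obtain ⟨h1, ⟨π, h2, h3⟩, ⟨a, ha, b, hb, h4⟩, c, h5⟩ := h
  have m : ∀ a, a ∈ 𝐂[k * y * k⁻¹] ↔ k⁻¹ * a * k ∈ 𝐂[y] := fun a => by
    rw [mem_centralizer_singleton_iff, mem_centralizer_singleton_iff]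
    constructor <;> intro e
    · calc _ = k⁻¹ * (a * (k * y * k⁻¹)) * k := by group
        _ = _ := by rw [e]; group
    · calc _ = k * (k⁻¹ * a * k * y) * k⁻¹ := by group
        _ = _ := by rw [e]; group
  let ψ : 𝐂[k * y * k⁻¹] →* 𝐂[y] := ((MulAut.conj k⁻¹).toMonoidHom.comp (𝐂[k * y * k⁻¹]).subtype).codRestrict _
    fun a => by simpa using (m a).1 a.2
  refine ⟨by rw [← h1]; exact (MulAut.conj k).orderOf_eq y, ⟨π.comp ψ, fun u => ?_, fun a => (h3 _).trans ?_⟩,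
    ⟨k * a * k⁻¹, (m _).2 (by simpa [mul_assoc] using ha), k * b * k⁻¹, (m _).2 (by simpa [mul_assoc] using hb), ?_⟩,
    k * c * k⁻¹, by rw [conj_inv (a := y), ← h5]; group⟩
  · obtain ⟨u, rfl⟩ := h2 u
    exact ⟨⟨k * u * k⁻¹, (m _).2 (by simp [mul_assoc])⟩, congrArg π (Subtype.ext (by simp [ψ, mul_assoc]))⟩
  · simp only [mem_zpowers_iff, conj_zpow]
    refine exists_congr fun j => ?_
    change _ = k⁻¹ * a * k⁻¹⁻¹ ↔ _
    constructor <;> intro e
    · rw [e]; group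
    · rw [← e]; group
  · obtain ⟨j, hj⟩ := mem_zpowers_iff.1 (h4 (mem_zpowers y))
    exact zpowers_le.2 (mem_zpowers_iff.2 ⟨j, by
      rw [← hj, ← conj_zpow, commutatorElement_def, commutatorElement_def]; congr 1; group⟩)

theorem PY.inv (h : PY y) : PY y⁻¹ := by
  obtain ⟨c, hc⟩ := h.2.2.2
  exact hc ▸ h.conj c

theorem PY.main [Finite Γ] (h : PY y) {Y : Subgroup Γ} (e : Y = zpowers y) [(Y.subgroupOf 𝐂(Y)).Normal] :
    IsQuasisimple ↥𝐂(Y) ∧ Nonempty (↥𝐂(Y) ⧸ Y.subgroupOf 𝐂(Y) ≃* U43) ∧ 𝐂(Y).relIndex 𝐍(Y) = 2 := by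
  subst e
  obtain ⟨h1, ⟨π, h2, h3⟩, ⟨a, ha, b, hb, h4⟩, c, h5⟩ := h
  have e : 𝐂(zpowers y) = 𝐂[y] := by rw [zpowers_eq_closure, centralizer_closure]
  have y3 : y ^ 3 = 1 := h1 ▸ pow_orderOf_eq_one y
  have y1 : y ≠ 1 := fun e => by simp [e] at h1
  refine ⟨?_, ⟨(QuotientGroup.quotientMulEquivOfEq (by
      ext a; rw [MonoidHom.mem_ker]; exact (h3 (MulEquiv.subgroupCongr e a)).symm)).trans
    (QuotientGroup.quotientKerEquivOfSurjective (π.comp (MulEquiv.subgroupCongr e).toMonoidHom)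
      (h2.comp (MulEquiv.subgroupCongr e).surjective))⟩, ?_⟩
  · rw [e]
    have k : π.ker = center _ := le_antisymm (fun a ha => mem_center_iff.2 fun b => Subtype.ext (by
      obtain ⟨k, hk⟩ := mem_zpowers_iff.1 ((h3 a).1 ha)
      rw [coe_mul, coe_mul, ← hk]
      exact ((show Commute b.1 y from mem_centralizer_singleton_iff.1 b.2).zpow_right k).eq))
      fun a ha => by
        rw [MonoidHom.mem_ker, ← mem_bot, ← center_U43, mem_center_iff]
        intro u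
        obtain ⟨u, rfl⟩ := h2 u
        rw [← map_mul, ← map_mul, mem_center_iff.1 ha]
    refine ⟨⟨?_⟩, ((QuotientGroup.quotientMulEquivOfEq k.symm).trans
      (QuotientGroup.quotientKerEquivOfSurjective π h2)).isSimpleGroup⟩
    have k1 : π.ker ≤ commutator _ := fun u hu => by
      obtain ⟨j, hj⟩ := mem_zpowers_iff.1 (h4 ((h3 u).1 hu))
      rw [show u = ⁅(⟨a, ha⟩ : 𝐂[y]), ⟨b, hb⟩⁆ ^ j from Subtype.ext hj.symm]
      exact zpow_mem (commutator_mem_commutator (mem_top _) (mem_top _)) j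
    have k2 : commutator U43 = ⊤ := ((inferInstance : (commutator U43).Normal).eq_bot_or_eq_top).resolve_left
      fun e => by
        have := card_U43
        rw [commutator_eq_bot_iff_center_eq_top, center_U43] at e
        rw [← card_top, ← e, card_bot] at this; cases this
    rw [← comap_map_eq_self k1, map_commutator_eq, MonoidHom.range_eq_top.2 h2, ← commutator_def, k2, comap_top]
  · have cn : c ∈ 𝐍(zpowers y) := mem_normalizer_of_cj_le (by
      rw [cj, MonoidHom.map_zpowers]; exact zpowers_le.2 (h5 ▸ inv_mem (mem_zpowers y) : c * y * c⁻¹ ∈ _))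
    rw [e, relIndex, index_eq_two_iff]
    refine ⟨⟨c, cn⟩, fun b => ?_⟩
    obtain ⟨b, hb⟩ := b
    simp only [mem_subgroupOf, mem_centralizer_singleton_iff, coe_mul, ← mul_inv_eq_iff_eq_mul]
    have k : b * c * y * (b * c)⁻¹ = (b * y * b⁻¹)⁻¹ := by rw [conj_inv (a := y), ← h5]; group
    rw [k]
    rcases mem_zp3 y3 (conj_mem_of_mem_normalizer hb (mem_zpowers y)) with e1 | e1 | e1
    · exact absurd (conj_eq_one_iff.1 e1) y1
    · rw [e1]; exact Or.inr ⟨rfl, fun e => ne_inv3 y3 y1 e.symm⟩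
    · rw [e1, inv_inv]; exact Or.inl ⟨rfl, fun e => ne_inv3 y3 y1 e.symm⟩

/-- the elements of a Sylow subgroup: either there are nine commutators or the element is conjugate into `⟨y⟩` -/
noncomputable def sylOK (n ε : ℕ) (eq : EqT) (T : ℕ → ℕ) (I J y : List ℕ)
    (l : List (List ℕ × List ℕ × List (ℕ × ℕ))) : Bool :=
  allL (fun a => an (inI J a.1) (cnd (Nat.ble 9 a.2.2.length) (an (decide (a.2.2.map Prod.fst).Nodup)
    (allL (fun p => an (an (Nat.blt p.1 (2 ^ (n + 1))) (Nat.blt p.2 (2 ^ (n + 1))))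
      (Nat.beq ((cdB n).apw T a.1 p.2) (mulI n ε p.1 p.2))) a.2.2))
    (an (inI I a.2.1) (exL (eq (a.2.1 ++ a.1 ++ invW a.2.1)) [[], y, invW y])))) l

theorem Snd.syl [Finite Γ] (h : Snd eq f) (e : ES n ε f) (hz : f 8 ≠ 1) {T : ℕ → ℕ} {I J y : List ℕ}
    (rep : ∀ c, c / 2 ∈ J → RepC n f (T c) (sg f c)) {l : List (List ℕ × List ℕ × List (ℕ × ℕ))}
    (c : sylOK n ε eq T I J y l = true) (nd : ((l.map Prod.fst).map (wd f)).Nodup)
    (cJ : Nat.card (gen f J) ≤ l.length) : Nat.card (gen f J) = l.length ∧ ∀ a ∈ gen f J,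
      Nat.card ↥⁅gen f (qI n), zpowers a⁆ ≤ 8 → a = 1 ∨ ∃ k, a = k * wd f y * k⁻¹ ∨ a = k * (wd f y)⁻¹ * k⁻¹ := by
  classical
  have c := allL_iff.1 c
  have m : ∀ a ∈ (l.map Prod.fst).map (wd f), a ∈ gen f J := fun a ha => by
    simp only [List.map_map, List.mem_map] at ha
    obtain ⟨b, hb, rfl⟩ := ha
    exact wd_mem_gen f (inI_iff.1 (an_iff.1 (c b hb)).1)
  have ge : ∀ (S : Subgroup Γ) (l : List Γ), l.Nodup → (∀ a ∈ l, a ∈ S) → l.length ≤ Nat.card S := fun S l h1 h2 => by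
    rw [← List.toFinset_card_of_nodup h1, ← Set.ncard_coe_finset]
    exact Set.ncard_le_ncard (t := S) fun a ha => h2 a (List.mem_toFinset.1 ha)
  refine ⟨le_antisymm cJ (by simpa using ge _ _ nd m), fun a ha h8 => ?_⟩
  have := exhaust m nd (by simpa using cJ) ha
  simp only [List.map_map, List.mem_map] at this
  obtain ⟨b, hb, rfl⟩ := this
  obtain ⟨c1, c2⟩ := an_iff.1 (c b hb)
  cases e9 : Nat.ble 9 b.2.2.length <;> rw [e9] at c2
  · simp only [cnd_false, an_iff, exL_iff, List.mem_cons, List.not_mem_nil, or_false] at c2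
    obtain ⟨-, w, hw, e1⟩ := c2
    have e2 := h _ _ e1
    rw [wd_append, wd_append, wd_invW] at e2
    have e3 : wd f b.1 = (wd f b.2.1)⁻¹ * wd f w * (wd f b.2.1)⁻¹⁻¹ := by rw [← e2]; group
    rcases hw with rfl | rfl | rfl
    · left; simpa using e3
    · exact Or.inr ⟨_, Or.inl e3⟩
    · exact Or.inr ⟨_, Or.inr (wd_invW f _ ▸ e3)⟩
  · simp only [cnd_true, an_iff, allL_iff, Nat.blt_eq, beq_iff, decide_eq_true_eq] at c2
    have := ge ⁅gen f (qI n), zpowers (wd f b.1)⁆ ((b.2.2.map Prod.fst).map (nf n f))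
      (c2.1.map_on fun u hu v hv => by
        obtain ⟨p, hp, rfl⟩ := List.mem_map.1 hu
        obtain ⟨q, hq, rfl⟩ := List.mem_map.1 hv
        exact e.nf_inj hz (c2.2 p hp).1.1 (c2.2 q hq).1.1) fun a ha => by
        simp only [List.map_map, List.mem_map] at ha
        obtain ⟨p, hp, rfl⟩ := ha
        have e1 : wd f b.1 * nf n f p.2 * (wd f b.1)⁻¹ = nf n f ((cdB n).apw T b.1 p.2) :=
          (Bk.Rep.apw' (k := cdB n) (vec := nfC n f) (fun c hc => rep c (inI_iff.1 c1 c hc)) (c2.2 p hp).1.2).2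
        rw [(c2.2 p hp).2, ← e.nf_mul (c2.2 p hp).1.1] at e1
        rw [commutator_comm, show (nf n f ∘ Prod.fst) p = ⁅wd f b.1, nf n f p.2⁆ by
          rw [commutatorElement_def, e1]; simp]
        exact commutator_mem_commutator (mem_zpowers _) (nf_mem_gen n f _)
    have e10 := ble_iff.1 e9
    simp only [List.length_map] at this
    exact absurd (e10.trans (this.trans h8)) (by norm_num)
end

section
variable {G0 G : Type*} [Group G0] [Group G] {g0 : ℕ → G0} {g : ℕ → G} {I : List ℕ}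

theorem CoFun.nodup (h : CoFun (gen (pr g0 g) I)) {ws : List (List ℕ)} (c : allL (inI I) ws = true)
    (nd : (ws.map (wd g0)).Nodup) : (ws.map (wd g)).Nodup := by
  rw [List.nodup_map_iff_inj_on (List.Nodup.of_map _ nd)]
  intro u hu w hw e
  refine List.inj_on_of_nodup_map nd hu hw ?_
  have := h.eq (wd_mem_gen _ (inI_iff.1 (allL_iff.1 c u hu))) (wd_mem_gen _ (inI_iff.1 (allL_iff.1 c w hw)))
    (by rw [wd_prod, wd_prod]; exact e)
  rw [wd_prod, wd_prod] at this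
  exact congrArg Prod.fst this

theorem Fun.cofun [Finite G0] (fA : Fun (gen (pr g0 g) I)) (h : ∀ N ≤ gen g0 I, gen g0 I ≤ 𝐍(N) →
    (∀ J : List ℕ, (∀ j ∈ J, j ∈ I) → CoFun (gen (pr g0 g) J) →
      Nat.card N * Nat.card (gen (pr g0 g) J) ∣ Nat.card (gen g0 I)) → N = ⊥) : CoFun (gen (pr g0 g) I) := by
  have l : (gen (pr g0 g) I).comap (MonoidHom.inl G0 G) ≤ gen g0 I := fun a ha => fst_mem ha
  have nm : gen g0 I ≤ 𝐍((gen (pr g0 g) I).comap (MonoidHom.inl G0 G)) := fun m hm => mem_normalizer_of_cj_le (by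
    rintro _ ⟨a, ha, rfl⟩
    obtain ⟨b, hb⟩ := exists_snd (g := g) hm
    have := mul_mem (mul_mem hb ha) (inv_mem hb)
    simpa [mem_comap] using this)
  intro t ht
  refine mem_bot.1 (h _ l nm (fun J hJ c => ?_) ▸ (ht : t ∈ (gen (pr g0 g) I).comap (MonoidHom.inl G0 G)))
  have := card_sup_mul_card_inf (Or.inl ((gen_mono g0 hJ).trans nm))
  rw [(eq_bot_iff.2 fun a ha => by
    obtain ⟨b, hb⟩ := exists_snd (g := g) ha.2
    have e := fA.eq (gen_mono _ hJ hb) ha.1 rfl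
    rw [e] at hb
    exact mem_bot.2 (c a hb) : (gen (pr g0 g) I).comap (MonoidHom.inl G0 G) ⊓ gen g0 J = ⊥), card_bot, mul_one] at this
  rw [(fA.mono (gen_mono _ hJ)).card_gen, ← this]
  exact card_dvd_of_le (sup_le l (gen_mono g0 hJ))
end

end CA.CoT
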