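import Cfsg.Agent.Lib.CoT.Quo
import Cfsg.Agent.Lib.TC.Suz

/-!
Relabelled families, the relations of the Suzuki group, normal subgroups of permutation models.
-/

set_option autoImplicit false

namespace CA.CoT
open CA.Fi Subgroup CA CA.Ex2 Cfsg Equiv

section
variable {Γ : Type*} [Group Γ] {f : ℕ → Γ} {eq : EqT} {n ε : ℕ}

/-- the test for relabelled letters -/
noncomputable def eqS (eq : EqT) (sel : List ℕ) : EqT := fun u w => eq (rl sel u) (rl sel w)
theorem Snd.sb (h : Snd eq f) (sel : List ℕ) : Snd (eqS eq sel) (sb f sel) := fun u w e => by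
  rw [← wd_rl, ← wd_rl]; exact h _ _ e
theorem SndN.sb (h : SndN eq f) (sel : List ℕ) : SndN (eqS eq sel) (sb f sel) := fun u w e => by
  rw [← wd_rl, ← wd_rl]; exact h _ _ e

theorem LB.sb (h : LB n ε f) (hn : n ≤ 6) {sel : List ℕ} (c : ∀ i < 18, i ∉ [10, 11, 12, 13] → nth 0 sel i = i)
    (k : gen f [nth 0 sel 10, nth 0 sel 11] ≤ gen f [10, 11]) : LB n ε (sb f sel) :=
  h.swap hn (fun i hi e => congrArg f (c i hi e)) (by
    simp only [List.forall_mem_cons]; exact ⟨k (mem_gen f (by simp)), k (mem_gen f (by simp)), by simp⟩)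

theorem card_gen_nil : Nat.card (gen f []) = 1 := by rw [card_eq_one, eq_bot_iff, gen_le]; simp

theorem Snd.tc0 [Finite Γ] (h : Snd eq f) {K B N : ℕ} {sel : List ℕ} {nt : List (List (ℕ × ℕ))}
    {rels subs : List (List ℕ)} {steps : List (ℕ × ℕ × ℕ)} {v : List (List ℕ × List ℕ)}
    (c1 : tcOK K B sel.length nt rels subs = true)
    (c2 : (mkTc K B sel.length nt 0 rels subs []).run N steps (bit 0) 0 = true)
    (c3 : tqOK eq sel [] [] rels subs v = true) : Nat.card (gen f sel) ≤ N := by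
  simpa [card_gen_nil] using h.tcq c1 c2 c3

theorem gen_le_bind {σ : List (List ℕ)} {I J : List ℕ} (c : ∀ j ∈ J, ∃ i ∈ I, nth [] σ i = [2 * j]) :
    gen f J ≤ gen (fun i => wd f (nth [] σ i)) I := (gen_le f).2 fun j hj => by
  obtain ⟨i, hi, e⟩ := c j hj
  simpa [e] using mem_gen (fun i => wd f (nth [] σ i)) hi
theorem bind_le_gen {σ : List (List ℕ)} {I J : List ℕ} (c : ∀ i ∈ I, ∀ a ∈ nth [] σ i, a / 2 ∈ J) :
    gen (fun i => wd f (nth [] σ i)) I ≤ gen f J := (gen_le _).2 fun i hi => wd_mem_gen f (c i hi)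
theorem genW_ltW (I : List ℕ) : genW f (ltW I) = gen f I := le_antisymm ((genW_le f).2 fun w hw => by
    obtain ⟨i, hi, rfl⟩ := ltW_mem hw
    simpa using mem_gen f hi) ((gen_le f).2 fun i hi => by
    simpa using mem_genW f (ws := ltW I) (List.mem_map.2 ⟨i, hi, rfl⟩))

/-- the certificate of the definitions -/
noncomputable def dfV (b : ℕ) (ds : List (List ℕ)) : List (List ℕ × List ℕ) :=
  (List.range ds.length).map fun k => ([2 * (b + k)], nth [] ds k)

/-- the relators of the Suzuki group -/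
def RS : List (List ℕ × ℕ) := [([48], 2), ([50], 2), ([52], 2), ([54], 2), ([56], 2), ([48, 50], 5), ([48, 52], 2),
  ([48, 54], 2), ([48, 56], 2), ([50, 52], 3), ([50, 54], 2), ([50, 56], 2), ([52, 54], 8), ([52, 56], 2), ([54, 56], 3),
  (pwW [50, 52, 54, 52, 54] 5 ++ [56], 3), ([58], 2), ([60], 2), ([48, 58], 2), ([48, 60], 2), ([50, 58], 3),
  ([50, 60], 3), ([52, 58], 2), ([52, 60], 2), ([54, 58], 2), ([54, 60], 2), ([56, 58], 2), ([56, 60], 2), ([58, 60], 4),
  ([48, 50, 52, 58], 5), ([50, 58, 60], 5)]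

theorem Snd.suz (h : Snd eq f) (c : allL (fun p => eq (pwW p.1 p.2) []) RS = true ∧
    eq [48] (pwW [52, 54] 4) = true ∧ eq [48] (pwW [58, 60] 2) = true) :
    TC.SuzRel (f 24) (f 25) (f 26) (f 27) (f 28) (f 29) (f 30) := by
  have r : ∀ p ∈ RS, wd f p.1 ^ p.2 = 1 := fun p hp => h.pow (allL_iff.1 c.1 p hp)
  have x1 := h _ _ c.2.1
  have x3 := h _ _ c.2.2
  simp only [RS, List.forall_mem_cons, wd_cons, wd_nil, wd_append, wd_pwW, mul_one, ← mul_assoc,
    show sg f 48 = _ from sg_even f 24, show sg f 50 = _ from sg_even f 25, show sg f 52 = _ from sg_even f 26,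
    show sg f 54 = _ from sg_even f 27, show sg f 56 = _ from sg_even f 28, show sg f 58 = _ from sg_even f 29,
    show sg f 60 = _ from sg_even f 30] at r x1 x3
  obtain ⟨a1, a2, a3, a4, a5, a6, a7, a8, a9, a10, a11, a12, a13, a14, a15, a16, b1, b2, b3, b4, b5, b6, b7, b8, b9,
    b10, b11, b12, b13, b14, b15, -⟩ := r
  exact ⟨⟨pow_two (f 24) ▸ a1, pow_two (f 25) ▸ a2, pow_two (f 26) ▸ a3, pow_two (f 27) ▸ a4, pow_two (f 28) ▸ a5,
    a6, a7, a8, a9, a10, a11, a12, a13, a14, a15, x1, a16⟩, pow_two (f 29) ▸ b1, pow_two (f 30) ▸ b2, b3, b4, b5, b6,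
    b7, b8, b9, b10, b11, b12, b13, x3, b14, b15⟩
end

section
variable {K B : ℕ} {nets : List (List (ℕ × ℕ))}

theorem bot_of_nc (hK : 2 ≤ K) (hB : B ≤ 2 ^ K) (h : netsOK B nets = true) {tl : List (ℕ × ℕ)}
    (ht : tl = nets.map (tabN K B)) {N p q x s m k : ℕ} {I ps u v t : List ℕ}
    (c : ncOK K B N nets ((tabB K B).lk tl) I ps u v p q x = true) (hp : p.Prime)
    (c1 : Nat.card (gen (mdlN B nets h) I) = p * s) (hs : ¬ p ∣ s) (ho : Odd (p * m))
    (hm : ∀ d, d ∣ m → ∀ e, e ∣ d → d ≡ e [MOD p] → d ≤ e)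
    (ct : inI I t = true ∧ eqN K B nets (pwW (pwW (t ++ u ++ invW t ++ invW u) k) 2) [] = true ∧
      neN nets ps (pwW (t ++ u ++ invW t ++ invW u) k) [] = true) {ls : List Bk.Lv} {bw : List (List ℕ)}
    (cl : (tabB K B).chainW ((tabB K B).lk tl) (ltW I) ls = true ∧ (ls.map Bk.Lv.a).prod = p * s)
    (cb : allL (fun l => exL (fun w => an (inI I w) (Nat.beq (pushN nets w (bit x)) (bit l.b))) bw) ls = true)
    {A : Subgroup (PB B)} (hA : A ≤ gen (mdlN B nets h) I) (nA : gen (mdlN B nets h) I ≤ 𝐍(A))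
    (hd : Nat.card A ∣ p * m) : A = ⊥ := by
  haveI := Fact.mk hp
  obtain ⟨d1, c⟩ := an_iff.1 c
  obtain ⟨d2, c⟩ := an_iff.1 c
  obtain ⟨d3, c⟩ := an_iff.1 c
  obtain ⟨-, d5⟩ := an_iff.1 c
  simp only [an_iff, allL_iff, allN_iff, beq_iff, inI_iff, frc_eq, Nat.blt_eq, ble_iff, decide_eq_true_eq, exL_iff]
    at d1 d2 d5 cb
  obtain ⟨⟨d5, d6⟩, d7, -⟩ := d5
  have r := mdlN_rep hK hB h ht
  have ou := orderOf_mdl hB h hp d3
  have hu := wd_mem_gen (mdlN B nets h) d2.1
  have lt : gen (mdlN B nets h) I ≤ (PB N).comap (PB B).subtype := (gen_le _).2 fun i hi y hy => by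
    by_cases e : y < B
    · have := (r (2 * i) y e).2
      rw [sg_even] at this
      obtain ⟨j, rfl⟩ := Nat.exists_eq_add_of_le hy
      exact this.trans (d1 i hi j (by omega))
    · exact (mdlN B nets h i).2 y (not_lt.1 e)
  have fx : ∀ y < N, (wd (mdlN B nets h) u).1 y = y ↔ y = x := fun y hy => by
    have := (Bk.Rep.ev (tabB_ok hB) r u y (lt_of_lt_of_le hy d6)).2
    rw [show (wd (mdlN B nets h) u).1 y = fld K ((tabB K B).ev ((tabB K B).lk tl) u) y from this, ← beq_iff,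
      d7 y hy, beq_iff]
  have np : ¬ p ∣ Nat.card A := fun e => by
    obtain ⟨a, ha, oa⟩ : ∃ a ∈ A, orderOf a = p := by
      obtain ⟨a, ha⟩ := exists_prime_orderOf_dvd_card' p e
      exact ⟨a, a.2, by rw [orderOf_coe, ha]⟩
    obtain ⟨g, hg, e1⟩ := exists_conj_zpowers hp c1 hs hu (hA ha) ou oa
    have e2 : wd (mdlN B nets h) u ∈ A := by
      simpa [mul_assoc] using conj_inv_mem_of_mem_normalizer (nA hg) (zpowers_le.2 ha e1)
    have e3 : wd (mdlN B nets h) (pwW (t ++ u ++ invW t ++ invW u) k) ∈ A := by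
      rw [wd_pwW, wd_append, wd_append, wd_append, wd_invW, wd_invW]
      exact pow_mem (mul_mem (conj_mem_of_mem_normalizer (nA (wd_mem_gen _ (inI_iff.1 ct.1))) e2) (inv_mem e2)) k
    have := A.orderOf_dvd_natCard e3
    rw [orderOf_mdl hB h Nat.prime_two (an_iff.2 ct.2)] at this
    exact (Nat.not_even_iff_odd.2 ho) (even_iff_two_dvd.2 (this.trans hd))
  have ce : A ≤ 𝐂(zpowers (wd (mdlN B nets h) u)) := inf_eq_left.1 (eq_of_le_of_card_le inf_le_left
    (hm _ ((Nat.Coprime.symm ((Nat.Prime.coprime_iff_not_dvd hp).2 np)).dvd_of_dvd_mul_left hd) _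
      (card_dvd_of_le inf_le_left) (card_modEq_card_inf_cent (IsPGroup.of_card (n := 1) (by simp [ou]))
      (zpowers_le.2 (nA hu)))))
  have f0 : ∀ a ∈ A, a.1 x = x := fun a ha => (fx _ (perm_lt (lt (hA ha)) d5)).1 (by
    have := congrArg (fun b : PB B => b.1 x) (mem_centralizer_iff.1 (ce ha) _ (mem_zpowers _))
    simpa [(fx x d5).2 rfl] using this)
  have := Bk.chainW_sound' (tabB_ok hB) (vec := id) (Set.injOn_id _) (fun _ _ c _ => r c) cl.1 hA (fun l hl a ha => by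
      obtain ⟨w, -, w1, w2⟩ := cb l hl
      rw [pushN_bit h] at w2
      have e1 : (wd (mdlN B nets h) w).1 x = l.b := by simpa using congrArg (·.testBit l.b) w2
      have := f0 _ (conj_inv_mem_of_mem_normalizer (nA (wd_mem_gen _ w1)) ha)
      change a.1 l.b = l.b
      rw [← e1]
      simpa [Equiv.symm_apply_eq] using this) fun w hw => by
    obtain ⟨i, hi, rfl⟩ := ltW_mem hw
    simpa using mem_gen _ hi
  rw [cl.2, ← c1] at this
  exact (card_le_one_iff_eq_bot _).1 (Nat.le_of_mul_le_mul_left (this.trans (mul_one _).ge) Nat.card_pos)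
end

end CA.CoT
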