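import Cfsg.Agent.Lib.CoT.Szb
import Cfsg.Agent.Lib.CoT.Szc
import Cfsg.Agent.Lib.CoT.Szd
import Cfsg.Agent.Lib.CoT.Quo2

/-!
Groups of Suzuki type: the local subgroups and the centralizer of the element of order three.
-/

set_option autoImplicit false

namespace CA.CoT.S
open CA.Fi Subgroup CA CA.Ex2 Cfsg Equiv CA.CoT CA.F24

local notation "gM" => mdlN 1792 nM nM_ok
theorem sM : Snd eM gM := snd_eqN (by norm_num) nM_ok
theorem sD : SndN dM gM := sndN_neN nM_ok ps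
theorem sK (Ks : List (List ℕ)) : Snd (eqK eM Ks) gM := fun _ _ e => sM _ _ (an_iff.1 e).2
theorem es_M : ES 6 12 gM := ES.of_esW (by decide) (by decide) sM (an_iff.1 M_lb).1
theorem hz_M : gM 8 ≠ 1 := by simpa [show sg gM 16 = _ from sg_even _ 8] using sD _ _ M_k.2
theorem rep_M : ∀ c, c / 2 ∈ HX → RepC 6 gM (T c) (sg gM c) := (sK _).rep es_M M_rep
theorem lb_M : LB 6 12 gM := sM.lb (by decide) (by decide) (by decide) (by decide) M_lb fun j hj => by
  simpa using (rep_M (2 * j) (by rw [Nat.mul_div_cancel_left j two_pos]; revert j; decide)).norm es_M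
theorem HI_HX : ∀ i ∈ HI 6, i ∈ HX := by decide

section
variable {Γ : Type*} [Group Γ] [Finite Γ] {f : ℕ → Γ}

theorem cB (s : Snd (eqK eM [HX]) f) (lb : LB 6 12 f) (hz : f 8 ≠ 1) : Nat.card (gen f (BI 6)) ≤ 122880 := by
  have := lb.card_B hz
  have := s.tc0 tkc1 tkc2 tkc3
  omega
theorem cL (s : Snd (eqK eM [HX]) f) (lb : LB 6 12 f) (hz : f 8 ≠ 1) : Nat.card (gen f (LI 6)) ≤ 368640 := by
  have := lb.card_L hz
  have := s.tc0 tkc1 tkc2 tkc3
  omega
theorem cH (s : Snd (eqK eM [HX]) f) (lb : LB 6 12 f) (hz : f 8 ≠ 1) : Nat.card (gen f (HI 6)) ≤ 3317760 := by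
  have := s.tcq thc1 thc2 thc3
  have := cB s lb hz
  omega

/-- the letters of the centralizer -/
noncomputable abbrev fY (f : ℕ → Γ) (i : ℕ) : Γ := wd f (nth [] sY i)
variable (s : Snd (eqK eM [HX, LX, 22 :: N1, N2]) f)
include s
omit [Finite Γ]
theorem sY' : Snd eY (fY f) := s.bind _
theorem hfY (i : ℕ) : fY f i ∈ 𝐂[fY f 16] := (sY' s).centY Y_c i
theorem y3 : fY f 16 ^ 3 = 1 := by
  simpa [show sg (fY f) 32 = _ from sg_even _ 16] using (sY' s).pow Y_cr.2.2.2.2.2.1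

theorem uhY (hz : f 8 ≠ 1) (zz : f 8 * f 8 = 1) : U.UH (qf (hfY s)) :=
  U.uh_of ((sY' s).qf _) Y_lb.1 Y_lb.2.1 Y_lb.2.2 (fun e => hz (by
    have e1 : fY f 8 = f 8 := (mul_one _).trans (sg_even f 8)
    have e2 : f 8 ^ 3 = 1 := by
      rcases mem_zp3 (y3 s) (pq_eq_one.1 e) with e3 | e3 | e3 <;> rw [← e1, show fY f 8 = _ from e3]
      exacts [one_pow _, y3 s, by rw [inv_pow, y3 s, inv_one]]
    rwa [pow_succ, pow_two, zz, one_mul] at e2)) (((sY' s).qf _).rels Y_rel)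

theorem crY (h : wd (qf (hfY s)) U.cr = 1) : wd (fY f) U.cr = 1 := by
  rw [wd_qf, pq_eq_one] at h
  have e1 := sY' s _ _ Y_cr.1
  obtain ⟨c, hc, e2⟩ := (sY' s).modY Y_cr.2.1
  have e3 := sY' s _ _ Y_cr.2.2.1
  simp only [U.cr, wd_cons, wd_nil, wd_append, wd_invW, mul_one, show sg (fY f) 16 = _ from sg_even _ 8,
    show sg (fY f) 26 = _ from sg_even _ 13, show sg (fY f) 27 = _ from sg_odd _ 13] at h e1 e2 e3 ⊢
  exact comm_triv (y3 s) (wd_mem _ fun _ _ => hfY s _) (hfY s _) (hfY s _) e3 hc (e1 ▸ e2) h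
end

theorem mo_M : Mo 6 12 25920 60 T gM := by
  have k : ∀ p ∈ [([20], 5), ([22], 3), ([24], 3), ([26], 3), ([20, 22], 2)], wd gM (pwW p.1 p.2) = 1 :=
    fun p hp => sM.one (allL_iff.1 M_k.1 p hp)
  simp only [List.forall_mem_cons] at k
  refine ⟨lb_M, hz_M, fun c hc => rep_M c (HI_HX _ hc), ?_, Or.inr M_c1, Or.inr ⟨_, ?_, M_c2⟩,
    (sK _).tc0 tkc1 tkc2 tkc3, ⟨_, M_lB⟩, ⟨_, M_lH⟩, M_fQ⟩
  · simp only [List.forall_mem_cons, wd_pwW, wd_cons, wd_nil, mul_one] at k ⊢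
    exact ⟨⟨5, by decide, k.1⟩, ⟨3, by decide, k.2.1⟩, ⟨3, by decide, k.2.2.1⟩, ⟨3, by decide, k.2.2.2.1⟩, by simp⟩
  · simp only [List.forall_mem_cons]
    exact ⟨⟨by decide, k.1⟩, ⟨by decide, k.2.1⟩, ⟨by decide, k.2.2.2.2.1⟩, by simp⟩

variable {G : Type*} [Group G] [Finite G] {g : ℕ → G}

/-- the local data with the derived letters -/
structure SZ (g : ℕ → G) : Prop where
  L : Lc 6 12 T gM g
  cH : Nat.card ↥𝐂[g 8] = 3317760
  d : Snd (eqD 18 ds) (pr gM g)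

theorem exists_sz {Q : Subgroup G} {z : G} (h : Typ 6 12 25920 Q z) :
    ∃ g : ℕ → G, g 8 = z ∧ gen g (qI 6) = Q ∧ SZ g := by
  obtain ⟨g, rfl, rfl, L⟩ := mo_M.exists_lc (N := 27) h M_E M_fK (by decide) (by norm_num) (cH (sK _) lb_M hz_M)
  obtain ⟨g', e, d⟩ := exists_ext g 18 ds M_d.2
  exact ⟨g', e 8 (by omega), gen_congr fun i hi => e i (by revert i; decide),
    L.congr (by decide) e, e 8 (by omega) ▸ h.cH, snd_eqD sM M_d.1 d⟩

namespace SZ
variable (h : SZ g)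
include h
omit [Finite G]
theorem le {I J : List ℕ} (c : memsW (eqD 18 ds) J (ltW I) (dfV 18 ds) = true) :
    gen (pr gM g) I ≤ gen (pr gM g) J := h.d.le c
theorem leH : gen (pr gM g) HX ≤ gen (pr gM g) (HI 6) := h.le (by decide +kernel)
theorem leL : gen (pr gM g) LX ≤ gen (pr gM g) (LI 6) := h.le (by decide +kernel)
theorem fH : Fun (gen (pr gM g) HX) := h.L.fH.mono h.leH
theorem coH : CoFun (gen (pr gM g) HX) := h.L.cH.mono h.leH
theorem sH : Snd (eqK eM [HX]) (pr gM g) := sM.known (by simpa using h.fH)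
theorem s0 : Snd (eqK eM [HX, LX]) (pr gM g) := sM.known (by simpa using ⟨h.fH, h.L.fL.mono h.leL⟩)
theorem hz : g 8 ≠ 1 := h.L.lq.ez.ne_one
theorem eH : gen g HX = 𝐂[g 8] := le_antisymm (by
  simpa only [map_snd_gen, h.L.eH] using map_mono (f := MonoidHom.snd _ G) h.leH) (h.L.eH ▸ gen_mono g HI_HX)
variable [Finite G]

theorem cS : Nat.card (gen (pr gM g) S1) ≤ 73728 := by
  have a1 := (h.L.lp.sb (sel := sel1) (by decide) (by decide) (h.le (by decide +kernel))).card_L (pr_ne hz_M)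
  rw [gen_sb, gen_sb] at a1
  have a2 := h.sH.tc0 tac1 tac2 tac3
  change Nat.card (gen _ S1) ≤ _ * Nat.card (gen _ [18, 11]) * 6 at a1
  omega

theorem f1 : Fun (gen (pr gM g) N1) := by
  obtain ⟨x1, x2, x3, x4, x5, x6, x7⟩ := xc1
  obtain ⟨x10, x11, x12, x13, x14, x15⟩ := xc10
  refine rank3 (K := 11) (by norm_num) nM_ok h.L h.s0 h.cH x1 x2 (nodup_of_fp nM_ok x3) x4 x5 x6 x7 xc8 xc9 x10 x11 x12
    x13 x14 x15 ?_
  have a1 := h.cS
  have a3 := (lx_ok.2 ▸ mdl_lb (by norm_num) (by norm_num) nM_ok tM_eq lx_ok.1).trans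
    (card_le_of_le (gen_mono gM (J := N1) (by decide)))
  omega

theorem f2 : Fun (gen (pr gM g) N2) := by
  obtain ⟨x1, x2, x3, x4, x5, x6, x7⟩ := yc1
  obtain ⟨x10, x11, x12, x13, x14, x15⟩ := yc10
  refine rank3 (K := 11) (by norm_num) nM_ok h.L h.s0 h.cH x1 x2 (nodup_of_fp nM_ok x3) x4 x5 x6 x7 yc8 yc9 x10 x11 x12
    x13 x14 x15 ?_
  have a1 := (h.L.lp.sb (sel := sel2) (by decide) (by decide) (h.le (by decide +kernel))).card_L (pr_ne hz_M)
  rw [gen_sb, gen_sb] at a1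
  have a2 := h.sH.tc0 tbc1 tbc2 tbc3
  have a3 := (ly_ok.2 ▸ mdl_lb (by norm_num) (by norm_num) nM_ok tM_eq ly_ok.1).trans
    (card_le_of_le (gen_mono gM (J := N2) (by decide)))
  change Nat.card (gen _ S2) ≤ _ * Nat.card (gen _ [19, 11]) * 6 at a1
  omega

theorem s1 : Snd (eqK eM [HX, LX, 22 :: N1, N2]) (pr gM g) := sM.known (by
  simpa using ⟨h.fH, h.L.fL.mono h.leL, h.f1.mono (h.le (by decide +kernel)), h.f2⟩)

theorem rep : ∀ c, c / 2 ∈ HX → RepC 6 g (T c) (sg g c) := h.sH.snd.rep h.L.lb.es M_rep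

theorem py : PY (g 11) ∧ gen g CY = 𝐂[g 11] ∧ Nat.card ↥𝐂[g 11] = 9797760 ∧ wd (fY g) U.cr = 1 := by
  have s := h.s1.snd
  have u := uhY s h.hz h.L.lb.es.zz
  have e8 : fY g 8 = g 8 := (mul_one _).trans (sg_even g 8)
  have e16 : fY g 16 = g 11 := (mul_one _).trans (sg_even g 11)
  have y1 : fY g 16 ≠ 1 := (sD.known (by simpa using h.coH) : SndN (eqK dM [HX]) g) _ _ Y_cr.2.2.2.2.2.2.2
  haveI := Fact.mk Nat.prime_three
  have oy : orderOf (fY g 16) = 3 := orderOf_eq_prime (y3 s) y1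
  obtain ⟨c1, c2, c3⟩ := h.sH.snd.cen h.L.lb.es h.hz h.L.rep (h.L.eH ▸ h.cH).le M_cen.1
  rw [genW_ltW] at c1 c2 c3
  rw [M_cen.2] at c3
  have e1 : up (gen (qf (hfY s)) (HI 4)) = gen g CH := (up_gen _ _).trans
    (le_antisymm (bind_le_gen (by decide +kernel)) (gen_le_bind (by decide +kernel)))
  have e2 : up 𝐂[qf (hfY s) 8] = gen g CH := by
    rw [← c1, h.L.eH, inf_comm, ← e8]
    exact up_cent (y3 s) (e8 ▸ h.L.lb.es.zz : fY g 8 * fY g 8 = 1)
  have eH := le_antisymm (le_of_up (e1.trans e2.symm).le) (le_of_up (e1.trans e2.symm).ge)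
  have cH : Nat.card ↥𝐂[qf (hfY s) 8] = 1152 := by
    have := card_up 𝐂[qf (hfY s) 8]
    rw [e2, Nat.card_zpowers, oy] at this
    omega
  obtain ⟨⟨e⟩, -, top⟩ := u.main eH cH
  have e3 : up (⊤ : Subgroup (CQ (fY g 16))) = 𝐂[fY g 16] :=
    le_antisymm (up_le _) fun a ha => (mem_up (a := ⟨a, ha⟩)).2 (mem_top _)
  rw [← e16]
  refine ⟨⟨oy, ⟨e.toMonoidHom.comp (pq _), e.surjective.comp (QuotientGroup.mk'_surjective _), fun a =>
    (map_eq_one_iff _ e.injective).trans pq_eq_one⟩, ⟨_, wd_mem (fY g) (w := U.gw) fun _ _ => hfY s _, _, hfY s 12, ?_⟩,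
    g 20, ?_⟩, ?_, ?_, crY s (u.cr eH cH)⟩
  · have := sY' s _ _ Y_cr.2.2.2.2.1
    simp only [wd_cons, wd_nil, wd_append, wd_invW, mul_one, show sg (fY g) 24 = _ from sg_even _ 12,
      show sg (fY g) 25 = _ from sg_odd _ 12, show sg (fY g) 33 = _ from sg_odd _ 16] at this
    rw [commutatorElement_def, this, zpowers_inv]
  · have := s _ _ Y_cr.2.2.2.2.2.2.1
    simpa [e16, mul_assoc, show sg g 40 = _ from sg_even _ 20, show sg g 41 = _ from sg_odd _ 20,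
      show sg g 22 = _ from sg_even _ 11, show sg g 23 = _ from sg_odd _ 11] using this
  · rw [← e3, ← top, up_gen]
    exact le_antisymm (gen_le_bind (by decide +kernel)) (bind_le_gen (by decide +kernel))
  · rw [← e3, card_up, Nat.card_zpowers, oy, card_top, Nat.card_congr e.toEquiv, card_U43]

theorem cY : Nat.card (gen (pr gM g) CY) ≤ 9797760 := by
  have s := h.s1
  have u := uhY s (pr_ne hz_M) h.L.lp.es.zz
  have := u.card (by
    rw [wd_qf, pq_eq_one]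
    have e : wd (fY (pr gM g)) U.cr = 1 := by
      rw [← wd_bindW, wd_prod, wd_bindW, wd_bindW, h.py.2.2.2, (sM.bind _).one Y_cr.2.2.2.1]; rfl
    exact Set.mem_of_eq_of_mem e (one_mem _))
  have a1 := card_le_of_le (gen_le_bind (f := pr gM g) (σ := sY) (I := 16 :: U.AI) (J := CY) (by decide +kernel))
  rw [← up_gen (hfY s), card_up, Nat.card_zpowers] at a1
  exact a1.trans (Nat.mul_le_mul (Nat.le_of_dvd three_pos (orderOf_dvd_of_pow_eq_one (y3 s))) this)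

theorem cM : Nat.card (gen (pr gM g) MS) ≤ 448345497600 := by
  have a1 := (card_le_of_le ((gen_mono _ (I := 1 :: P1) (by decide)).trans h.leL)).trans (cL h.sH h.L.lp (pr_ne hz_M))
  have a2 : Nat.card (gen (pr gM g) (1 :: 12 :: P2)) ≤ 1105920 := by
    have a1 := (card_le_of_le (h.le (I := 1 :: 12 :: P2) (by decide +kernel))).trans (h.s1.tcq tmc1 tmc2 tmc3)
    have := h.cS
    omega
  have a3 := (card_le_of_le (h.le (I := 1 :: 12 :: X3) (by decide +kernel))).trans (h.s0.tcq tnc1 tnc2 tnc3)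
  have a4 := h.cY
  have b1 := u1_ok.2 ▸ mdl_ub (by norm_num) (by norm_num) nM_ok tM_eq (g := g) u1_ok.1 u1_f.1 u1_f.2
    (gen_mono _ (by decide))
  have b2 := u2_ok.2 ▸ mdl_ub (by norm_num) (by norm_num) nM_ok tM_eq (g := g) u2_ok.1 u2_f.1 u2_f.2
    (gen_mono _ (by decide))
  have b3 := u3_ok.2 ▸ mdl_ub (by norm_num) (by norm_num) nM_ok tM_eq (g := g) u3_ok.1 u3_f.1 u3_f.2
    (gen_mono _ (by decide))
  have b4 : Nat.card (gen (pr gM g) P1) ≤ 184320 := by omega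
  have c1 := tc_orb (by norm_num) (by norm_num) nM_ok tM_eq tgc1 tgc2 tgc3 (g := g) (by
      simp only [List.forall_mem_cons]; exact ⟨b4, by omega, by omega, by simp⟩)
    (S := gen (pr gM g) P1) (by simp) fun w hw => wd_mem_gen _ (inI_iff.1 (allL_iff.1 tgc4 w hw))
  have c2 := tc_orb (by norm_num) (by norm_num) nM_ok tM_eq tsc1 tsc2 tsc3 (g := g) (by
      simp only [List.forall_mem_cons]; exact ⟨by omega, a1, a2, by omega, by simp⟩)
    (S := gen (pr gM g) SG) (by simp) fun w hw => wd_mem_gen _ (inI_iff.1 (allL_iff.1 tsc4 w hw))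
  omega
end SZ

end CA.CoT.S
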