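import Cfsg.Agent.Lib.CoT.U43

/-!
From the hypotheses on two copies of `SL₂(3)` to the large extraspecial setting.
-/

set_option autoImplicit false

namespace CA.CoT.U
open Subgroup CA CA.Ex2 Cfsg CA.CoT CA.F24
open scoped MatrixGroups

theorem sl23_facts : Fintype.card SL(2, ZMod 3) = 24 ∧ Fintype.card {a : SL(2, ZMod 3) // a ^ 4 = 1} = 8 ∧
    (∀ a b : SL(2, ZMod 3), a ^ 4 = 1 → b ^ 4 = 1 → (a * b) ^ 4 = 1) ∧
    (∀ a : SL(2, ZMod 3), a ^ 4 = 1 → ∃ b c, a = b * c * b⁻¹ * c⁻¹) ∧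
    (∀ a b : SL(2, ZMod 3), a * a = 1 → b * b = 1 → a = 1 ∨ b = 1 ∨ a = b) ∧
    (∀ a : SL(2, ZMod 3), a ^ 4 = 1 → a * a = 1 ∨ ∃ b, b ^ 4 = 1 ∧ a * b ≠ b * a) ∧
    ∃ a : SL(2, ZMod 3), a ^ 4 = 1 ∧ a * a ≠ 1 := by
  refine ⟨?_, ?_, ?_, ?_, ?_, ?_, ?_⟩ <;> decide +kernel

variable {X : Type*} [Group X] [Finite X]

theorem sl23 {H : Subgroup X} (e : H ≃* SL(2, ZMod 3)) {z : X} (hz : z ∈ H) (zz : z * z = 1) (z1 : z ≠ 1) :
    Nat.card H = 24 ∧ ∃ A : Subgroup X, Nat.card A = 8 ∧ (∀ x, x ∈ A ↔ x ∈ H ∧ x ^ 4 = 1) ∧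
    (∀ x ∈ A, ∃ b ∈ H, ∃ c ∈ H, x = b * c * b⁻¹ * c⁻¹) ∧ (∀ x ∈ H, x * x = 1 → x ∈ zpowers z) ∧
    (∀ x ∈ A, x * x = 1 ∨ ∃ y ∈ A, x * y ≠ y * x) ∧ ∃ x ∈ A, x * x ≠ 1 := by
  obtain ⟨f1, f2, f3, f4, f5, f6, f7⟩ := sl23_facts
  let T : Subgroup SL(2, ZMod 3) :=
    { carrier := {a | a ^ 4 = 1}
      one_mem' := one_pow 4
      mul_mem' := fun {a b} => f3 a b
      inv_mem' := fun {a} (ha : a ^ 4 = 1) => by change a⁻¹ ^ 4 = 1; rw [inv_pow, ha, inv_one] }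
  let φ := H.subtype.comp e.symm.toMonoidHom
  have hφ : Function.Injective φ := H.subtype_injective.comp e.symm.injective
  have sj : ∀ x ∈ H, ∃ a, φ a = x := fun x hx => ⟨e ⟨x, hx⟩, by simp [φ]⟩
  have mm : ∀ a, φ a ∈ H := fun a => (e.symm a).2
  have one : ∀ a, φ a = 1 ↔ a = 1 := fun a => map_eq_one_iff φ hφ
  refine ⟨by rw [Nat.card_congr e.toEquiv, Nat.card_eq_fintype_card, f1], T.map φ, ?_, fun x => ⟨?_, fun hx => ?_⟩,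
    ?_, fun x hx xx => ?_, ?_, ?_⟩
  · rw [card_map_of_injective hφ, ← f2, ← Nat.card_eq_fintype_card]; rfl
  · rintro ⟨a, ha, rfl⟩
    exact ⟨mm a, by rw [← map_pow, one]; exact ha⟩
  · obtain ⟨a, rfl⟩ := sj x hx.1
    exact ⟨a, (one _).1 (by rw [map_pow]; exact hx.2), rfl⟩
  · rintro _ ⟨a, ha, rfl⟩
    obtain ⟨b, c, rfl⟩ := f4 a ha
    exact ⟨_, mm b, _, mm c, by simp only [map_mul, map_inv]⟩
  · obtain ⟨a, rfl⟩ := sj x hx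
    obtain ⟨b, rfl⟩ := sj z hz
    rw [← map_mul, one] at xx zz
    rcases f5 a b xx zz with rfl | rfl | rfl
    · rw [map_one]; exact one_mem _
    · exact absurd (map_one φ) z1
    · exact mem_zpowers _
  · rintro _ ⟨a, ha, rfl⟩
    refine (f6 a ha).imp (fun h => by rw [← map_mul, h, map_one]) fun ⟨b, h1, h2⟩ => ⟨_, ⟨b, h1, rfl⟩, fun h => h2 ?_⟩
    exact hφ (by rwa [map_mul, map_mul])
  · obtain ⟨a, h1, h2⟩ := f7
    exact ⟨_, ⟨a, h1, rfl⟩, by rwa [← map_mul, Ne, one]⟩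

theorem es_of_sl23 {H₁ H₂ : Subgroup X} (n1 : H₁ ⊔ H₂ ≤ 𝐍(H₁)) (n2 : H₁ ⊔ H₂ ≤ 𝐍(H₂))
    (e₁ : H₁ ≃* SL(2, ZMod 3)) (e₂ : H₂ ≃* SL(2, ZMod 3)) {z : X} (zz : z * z = 1) (z1 : z ≠ 1)
    (zc : ∀ x, Commute x z) (hm : H₁ ⊓ H₂ = zpowers z) :
    Extraspecial 2 (piCoreOf {2} (H₁ ⊔ H₂)) ∧ Nat.card (piCoreOf {2} (H₁ ⊔ H₂)) = 32 := by
  haveI := Fact.mk Nat.prime_two
  have zm : z ∈ H₁ ⊓ H₂ := hm ▸ mem_zpowers z
  have oz : orderOf z = 2 := orderOf_eq_prime (by rw [pow_two, zz]) z1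
  obtain ⟨c1, A, a1, a2, a3, a4, a5, a6⟩ := sl23 e₁ zm.1 zz z1
  obtain ⟨c2, B, b1, b2, -, b4, b5, -⟩ := sl23 e₂ zm.2 zz z1
  have z4 : z ^ 4 = 1 := by rw [show 4 = 2 * 2 from rfl, pow_mul, pow_two z, zz, one_pow]
  have nn : ∀ {H A : Subgroup X}, H₁ ⊔ H₂ ≤ 𝐍(H) → (∀ x, x ∈ A ↔ x ∈ H ∧ x ^ 4 = 1) → H₁ ⊔ H₂ ≤ 𝐍(A) :=
    fun n a k hk => mem_normalizer_of_cj_le (by
      rintro _ ⟨x, hx, rfl⟩
      exact (a _).2 ⟨conj_mem_of_mem_normalizer (n hk) ((a x).1 hx).1, by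
        rw [← map_pow, ((a x).1 hx).2, map_one]⟩)
  have lA : A ≤ H₁ := fun x hx => ((a2 x).1 hx).1
  have lB : B ≤ H₂ := fun x hx => ((b2 x).1 hx).1
  have l : A ⊔ B ≤ H₁ ⊔ H₂ := sup_le_sup lA lB
  have nAB : B ≤ 𝐍(A) := (lB.trans le_sup_right).trans (nn n1 a2)
  have iAB : A ⊓ B = zpowers z := le_antisymm (hm ▸ inf_le_inf lA lB)
    (zpowers_le.2 ⟨(a2 z).2 ⟨zm.1, z4⟩, (b2 z).2 ⟨zm.2, z4⟩⟩)
  have cAB : Nat.card ↥(A ⊔ B) = 2 ^ 5 := by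
    have := card_sup_mul_card_inf (Or.inl nAB)
    rw [iAB, card_zp2 oz, a1, b1] at this; omega
  have cK : Nat.card ↥(H₁ ⊔ H₂) = 288 := by
    have := card_sup_mul_card_inf (Or.inl (le_sup_right.trans n1))
    rw [hm, card_zp2 oz, c1, c2] at this; omega
  have e : A ⊔ B = piCoreOf {2} (H₁ ⊔ H₂) := by
    refine eq_of_le_of_card_le (le_piCoreOf ⟨l, norms_sup (nn n1 a2) (nn n2 b2)⟩
      (piGrp_of_card_pow Nat.prime_two cAB)) ?_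
    obtain ⟨k, hk⟩ := (piGrp_singleton_iff_card Nat.prime_two).1 (piCoreOf_piGrp {2} (H₁ ⊔ H₂))
    have := card_dvd_of_le (piCoreOf_le {2} (H₁ ⊔ H₂))
    rw [cK, hk] at this
    rw [hk, cAB]
    exact Nat.le_of_dvd (by norm_num) ((Nat.Coprime.pow_left k (by norm_num : Nat.Coprime 2 9)).dvd_of_dvd_mul_right
      (show 2 ^ k ∣ 2 ^ 5 * 9 from this))
  have cz : ∀ u ∈ zpowers z, ∀ x, Commute x u := fun u hu x => by
    obtain ⟨k, rfl⟩ := mem_zpowers_iff.1 hu; exact (zc x).zpow_right k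
  have com : ∀ a ∈ A, ∀ h ∈ H₂, Commute a h := fun a ha h hh => by
    obtain ⟨b, hb, c, hc, rfl⟩ := a3 a ha
    have k : ∀ b ∈ H₁, ∃ u ∈ zpowers z, h * b * h⁻¹ = b * u := fun b hb => ⟨b⁻¹ * (h * b * h⁻¹), hm ▸
      ⟨H₁.mul_mem (H₁.inv_mem hb) (conj_mem_of_mem_normalizer (n1 (mem_sup_right hh)) hb), by
        simpa [mul_assoc] using H₂.mul_mem (conj_inv_mem_of_mem_normalizer (n2 (mem_sup_left hb)) hh) (H₂.inv_mem hh)⟩,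
      by group⟩
    obtain ⟨u, hu, e1⟩ := k b hb
    obtain ⟨v, hv, e2⟩ := k c hc
    refine (mul_inv_eq_iff_eq_mul.1 ?_).symm
    calc _ = (h * b * h⁻¹) * (h * c * h⁻¹) * (h * b * h⁻¹)⁻¹ * (h * c * h⁻¹)⁻¹ := by group
      _ = b * (u * (c * (v * u⁻¹ * b⁻¹ * v⁻¹))) * c⁻¹ := by rw [e1, e2]; group
      _ = _ := by
        rw [mul_assoc v, mul_assoc v, ← (cz v hv _).eq, mul_assoc _ v⁻¹, inv_mul_cancel, mul_one, ← mul_assoc u,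
          ← (cz u hu c).eq]; group
  have sq : ∀ {H A : Subgroup X}, (∀ x, x ∈ A ↔ x ∈ H ∧ x ^ 4 = 1) → (∀ x ∈ H, x * x = 1 → x ∈ zpowers z) →
      ∀ x ∈ A, x * x ∈ zpowers z := fun a b x hx => b _ (mul_mem ((a x).1 hx).1 ((a x).1 hx).1)
    (by rw [← ((a x).1 hx).2]; simp only [pow_succ, pow_zero, one_mul, mul_assoc])
  have cen : 𝐙(A ⊔ B) = zpowers z := le_antisymm (fun x hx => by
    obtain ⟨a, ha, b, hb, rfl⟩ := (mem_sup_of_norm_right nAB).1 hx.1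
    refine mul_mem (a4 a (lA ha) ((a5 a ha).resolve_right fun ⟨y, hy, h⟩ => h ?_))
      (b4 b (lB hb) ((b5 b hb).resolve_right fun ⟨y, hy, h⟩ => h ?_))
    · have := mem_centralizer_iff.1 hx.2 y (mem_sup_left hy)
      rw [mul_assoc, ← (com y hy b (lB hb)).eq, ← mul_assoc, ← mul_assoc] at this
      exact (mul_right_cancel this).symm
    · have := mem_centralizer_iff.1 hx.2 y (mem_sup_right hy)
      rw [← mul_assoc, ← (com a ha y (lB hy)).eq, mul_assoc, mul_assoc] at this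
      exact (mul_left_cancel this).symm)
    (zpowers_le.2 ⟨mem_sup_left (iAB.ge (mem_zpowers z)).1, mem_centralizer_iff.2 fun y _ => zc y⟩)
  have sq' : ∀ x ∈ A ⊔ B, x * x ∈ zpowers z := fun x hx => by
    obtain ⟨a, ha, b, hb, rfl⟩ := (mem_sup_of_norm_right nAB).1 hx
    rw [← pow_two, (com a ha b (lB hb)).mul_pow, pow_two, pow_two]
    exact mul_mem (sq a2 a4 a ha) (sq b2 b4 b hb)
  rw [← e]
  refine ⟨extraspecial_of_le_center (IsPGroup.of_card cAB) (fun hc => ?_) (cen ▸ phi_le_of_der_of_pow (p := 2)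
    (commutator_le.2 fun x hx y hy => ?_) fun x hx => by rw [pow_two]; exact sq' x hx) (by rw [cen, card_zp2 oz]), cAB⟩
  · obtain ⟨x, hx, h⟩ := a6
    obtain ⟨y, hy, h⟩ := (a5 x hx).resolve_left h
    exact h (congrArg Subtype.val (hc.is_comm.comm ⟨x, mem_sup_left hx⟩ ⟨y, mem_sup_left hy⟩))
  · have h1 := mul_mem (mul_mem (sq' x hx) (sq' _ (mul_mem (inv_mem hx) hy))) (inv_mem (sq' y hy))
    rw [commutatorElement_def]
    convert h1 using 1; group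

theorem u43_stmt {G : Type*} [Group G] [Finite G] {z : G} (hz : orderOf z = 2) {H₁ H₂ : Subgroup ↥𝐂[z]}
    (hn₁ : (H₁.subgroupOf (H₁ ⊔ H₂)).Normal) (hn₂ : (H₂.subgroupOf (H₁ ⊔ H₂)).Normal)
    (e₁ : H₁ ≃* SL(2, ZMod 3)) (e₂ : H₂ ≃* SL(2, ZMod 3)) (hm : (H₁ ⊓ H₂).map (𝐂[z]).subtype = zpowers z)
    (Q : Subgroup ↥𝐂[z]) [Q.Normal] (hQ : Q = (pCore 2 ↥(H₁ ⊔ H₂)).map (H₁ ⊔ H₂).subtype)
    (hF : generalizedFittingSubgroup ↥𝐂[z] = Q)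
    (hw : ∃ g : G, (∃ hq : g * z * g⁻¹ ∈ 𝐂[z], (⟨g * z * g⁻¹, hq⟩ : ↥𝐂[z]) ∈ Q) ∧ g * z * g⁻¹ ≠ z)
    (hH : Nat.card ↥𝐂[z] = 2 ^ 7 * 3 ^ 2)
    (hE : ∀ g : G, g * z * g⁻¹ ∈ Q.map (𝐂[z]).subtype → g * z * g⁻¹ ≠ z → Nat.card ↥(Q.map (𝐂[z]).subtype ⊓
      (Q.map (𝐂[z]).subtype).map (MulAut.conj g).toMonoidHom) = 4) :
    Nonempty (G ≃* U43) ∧ ∀ a : G, a * a = 1 → a ≠ 1 → IsConj z a := by
  have zz : z * z = 1 := by rw [← pow_two, ← hz, pow_orderOf_eq_one]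
  have z1 : z ≠ 1 := fun e => by simp [e] at hz
  obtain ⟨h1, h2⟩ := es_of_sl23 ((normal_subgroupOf_iff_le_normalizer le_sup_left).1 hn₁)
    ((normal_subgroupOf_iff_le_normalizer le_sup_right).1 hn₂) e₁ e₂
    (z := ⟨z, mem_centralizer_singleton_iff.2 rfl⟩) (Subtype.ext zz) (fun e => z1 (congrArg Subtype.val e))
    (fun x => Subtype.ext (mem_centralizer_singleton_iff.1 x.2))
    (map_injective (subtype_injective _) (by rw [hm, MonoidHom.map_zpowers]; rfl))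
  rw [piCoreOf_singleton Nat.prime_two, ← hQ] at h1 h2
  have T := typ_of_setting (n := 4) (ε := 0) (o := 36) hz Q hF (isExtraspecial_iff.2 h1) h2 (by
    have := card_eq_card_quotient_mul_card_subgroup Q
    rw [hH, h2] at this; omega) (by simp) hw
  refine u43_of_typ T fun a ha hn => (eq_of_le_of_card_le ?_ ?_).ge
  · have t := T.lq.tri ha hn
    exact sup_le (zpowers_le.2 ⟨t.l.ez.mem, t.mem'⟩) (zpowers_le.2 ⟨t.mem, t.r.ez.mem⟩)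
  · have aa : a * z * a⁻¹ * (a * z * a⁻¹) = 1 := by rw [conj_mul, zz]; simp
    haveI := Fact.mk Nat.prime_two
    rw [card_sup_zpowers (p := 2) (norms_zpowers_of_cent1 le_rfl (mem_centralizer_singleton_iff.2
      (T.lq.ez.comm ha))) (fun h => ((mem_zp2 zz).1 h).elim (fun e => z1 (conj_eq_one_iff.1 e)) hn)
      (by rw [pow_two, aa]; exact one_mem _), card_zp2 hz]
    exact (hE a ha hn).le

end CA.CoT.U
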